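import Cfsg.Agent.Lib.ThreeT.M24d
import Cfsg.Agent.Lib.TC.Perf

/-!
# A subgroup `PΩ⁺(8, 3) : S₃` of a group with a permutation model of its 3-transpositions

`Mdl`: the group acts on a set of points in bijection with `D`, and the points are coloured by four colours, the
colours `0, 1, 2` being permuted by the subgroup generated by the letters and one more member.
-/

set_option autoImplicit false
set_option linter.unusedSectionVars false
set_option linter.unusedVariables false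
set_option linter.style.longLine false
set_option linter.unusedSimpArgs false
set_option linter.unnecessarySimpa false
set_option linter.style.haveILetI false
set_option maxRecDepth 100000

namespace Cfsg.Agent.Lib.ThreeT.O83

open Cfsg
open scoped commutatorElement

/-- The isometry group. -/
abbrev O8 := Cfsg.isometryGroup (ZMod 3) (Cfsg.quadFormPlus 4 (ZMod 3))
/-- The simple group in dimension eight. -/
abbrev POm8 := Cfsg.POmega (ZMod 3) (Cfsg.quadFormPlus 4 (ZMod 3))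
/-- The simple group in dimension seven. -/
abbrev POm7 := Cfsg.POmega (ZMod 3) (Cfsg.quadFormOdd 3 (ZMod 3))

theorem card_POm7 : Nat.card POm7 = 4585351680 := by
  show Nat.card (Cfsg.POmega (ZMod 3) (Cfsg.quadFormOdd 3 (ZMod 3))) = 4585351680
  have h := Cfsg.Agent.Lib.Classical.QuadEichBridge.card_POmega_odd (F := ZMod 3) (q := 3)
    (ZMod.card 3) (by decide) 3 le_rfl
  norm_num [Finset.prod_range_succ] at h
  omega

theorem card_POm8 : Nat.card POm8 = 4952179814400 := Cfsg.Agent.Lib.ThreeT.M24d.card_omega8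

theorem simple_POm7 : IsSimpleGroup POm7 :=
  Cfsg.Agent.Lib.Classical.QuadEichBridge.isSimple_odd (by rw [ZMod.card]; decide) 3 le_rfl

theorem simple_POm8 : IsSimpleGroup POm8 :=
  Cfsg.Agent.Lib.Classical.QuadEichBridge.isSimple_plus 4 le_rfl

instance finite_POm7 : Finite POm7 := Nat.finite_of_card_ne_zero (by rw [card_POm7]; norm_num)
instance finite_POm8 : Finite POm8 := Nat.finite_of_card_ne_zero (by rw [card_POm8]; norm_num)

theorem not_comm_POm7 : ¬ ∀ u v : POm7, u * v = v * u :=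
  Cfsg.Agent.Lib.ThreeT.M24d.not_comm_of_simple simple_POm7 (by rw [card_POm7]; norm_num)

theorem center_POm7 (z : POm7) (h : ∀ y : POm7, z * y = y * z) : z = 1 := by
  have h1 : Subgroup.center POm7 = ⊥ := by
    haveI := simple_POm7
    rcases IsSimpleGroup.eq_bot_or_eq_top_of_normal (Subgroup.center POm7) inferInstance with h1 | h1
    · exact h1
    · exfalso
      apply not_comm_POm7
      intro u v
      have : u ∈ Subgroup.center POm7 := by rw [h1]; trivial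
      exact (Subgroup.mem_center_iff.1 this v).symm
  have h2 : z ∈ Subgroup.center POm7 := Subgroup.mem_center_iff.2 fun y => (h y).symm
  rw [h1] at h2
  exact h2

theorem perfect_POm7 : commutator POm7 = ⊤ := by
  haveI := simple_POm7
  refine Cfsg.Agent.Lib.TC.Perf.commutator_eq_top ?_
  by_contra hc
  apply not_comm_POm7
  intro u v
  by_contra h
  exact hc ⟨u, v, h⟩

/-! ### Generic lemmas -/

theorem exists_restrict {X Ω : Type*} [Group X] (act : X →* Equiv.Perm Ω) (Y : Ω → Prop) (hY : ∀ g p, Y p → Y (act g p)) :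
    ∃ ρ : X →* Equiv.Perm {p // Y p}, ∀ g (y : {p // Y p}), ((ρ g y : {p // Y p}) : Ω) = act g y := by
  let f : X →* Function.End {p // Y p} :=
    { toFun := fun g y => ⟨act g y, hY g y y.2⟩
      map_one' := by
        funext y
        apply Subtype.ext
        show act 1 y = y
        simp
      map_mul' := by
        intro a b
        funext y
        apply Subtype.ext
        show act (a * b) y = act a (act b y)
        simp }
  exact ⟨f.toHomPerm, fun g y => rfl⟩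

theorem exists_quot {X Y I : Type*} [Group X] (ρ : X →* Equiv.Perm Y) (c : Y → I) (hc : Function.Surjective c)
    (h : ∀ g y y', c y = c y' → c (ρ g y) = c (ρ g y')) : ∃ ξ : X →* Equiv.Perm I, ∀ g y, ξ g (c y) = c (ρ g y) := by
  have hs : ∀ i, c (Function.surjInv hc i) = i := Function.surjInv_eq hc
  let f : X →* Function.End I :=
    { toFun := fun g i => c (ρ g (Function.surjInv hc i))
      map_one' := by
        funext i
        show c (ρ 1 (Function.surjInv hc i)) = i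
        simp [hs]
      map_mul' := by
        intro a b
        funext i
        show c (ρ (a * b) (Function.surjInv hc i)) = c (ρ a (Function.surjInv hc (c (ρ b (Function.surjInv hc i)))))
        simp only [map_mul, Equiv.Perm.mul_apply]
        exact h a _ _ (hs _).symm }
  refine ⟨f.toHomPerm, fun g y => ?_⟩
  show c (ρ g (Function.surjInv hc (c y))) = c (ρ g y)
  exact h g _ _ (hs _)

theorem card_eq_mul {G Ω : Type*} [Group G] [Finite G] (act : G →* Equiv.Perm Ω) (x₀ : Ω) (H S : Subgroup G)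
    (hS : ∀ g, g ∈ S ↔ act g x₀ = x₀) (Y : Set Ω) (h1 : ∀ g ∈ H, act g x₀ ∈ Y) (h2 : ∀ p ∈ Y, ∃ g ∈ H, act g x₀ = p) :
    Nat.card H = Y.ncard * Nat.card ↥(H ⊓ S) := by
  classical
  let T : Subgroup H := S.subgroupOf H
  have h3 : Nat.card T * T.index = Nat.card H := Subgroup.card_mul_index T
  have hT : Nat.card T = Nat.card ↥(H ⊓ S) := by
    apply Nat.card_congr
    exact
      { toFun := fun g => ⟨g.1.1, g.1.2, g.2⟩
        invFun := fun g => ⟨⟨g.1, g.2.1⟩, g.2.2⟩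
        left_inv := fun g => rfl
        right_inv := fun g => rfl }
  have hI : T.index = Y.ncard := by
    rw [Subgroup.index, ← Nat.card_coe_set_eq]
    apply Nat.card_congr
    have hout : ∀ g : H, act (Quotient.out (QuotientGroup.mk g : H ⧸ T) : H) x₀ = act g x₀ := by
      intro g
      have h4 : ((Quotient.out (QuotientGroup.mk g : H ⧸ T) : H)⁻¹ * g) ∈ T :=
        QuotientGroup.eq.1 (QuotientGroup.out_eq' _)
      have h5 : ((Quotient.out (QuotientGroup.mk g : H ⧸ T) : H)⁻¹ * g : H).1 ∈ S := h4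
      have h6 := (hS _).1 h5
      simp only [Subgroup.coe_mul, Subgroup.coe_inv, map_mul, map_inv, Equiv.Perm.mul_apply] at h6
      have h7 := congrArg (act (Quotient.out (QuotientGroup.mk g : H ⧸ T) : H).1) h6
      simpa using h7.symm
    refine Equiv.ofBijective (fun q : H ⧸ T => ⟨act (q.out : H).1 x₀, h1 _ (q.out : H).2⟩) ⟨?_, ?_⟩
    · intro q q' he
      have h4 : act (q.out : H).1 x₀ = act (q'.out : H).1 x₀ := congrArg Subtype.val he
      rw [← QuotientGroup.out_eq' q, ← QuotientGroup.out_eq' q']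
      apply QuotientGroup.eq.2
      show ((q.out : H)⁻¹ * q'.out : H).1 ∈ S
      rw [hS]
      simp only [Subgroup.coe_mul, Subgroup.coe_inv, map_mul, map_inv, Equiv.Perm.mul_apply]
      rw [← h4]
      simp
    · rintro ⟨p, hp⟩
      obtain ⟨g, hg, rfl⟩ := h2 p hp
      refine ⟨QuotientGroup.mk ⟨g, hg⟩, Subtype.ext ?_⟩
      exact hout ⟨g, hg⟩
  rw [← h3, hT, hI, mul_comm]


/-! ### The model -/

/-- Exchange of two colours. -/
def sw12 : ℕ → ℕ
  | 1 => 2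
  | 2 => 1
  | n => n

/-- Exchange of two colours. -/
def sw02 : ℕ → ℕ
  | 0 => 2
  | 2 => 0
  | n => n

/-- A colour, for the first three colours. -/
def cf (n : ℕ) : Fin 3 := ⟨n % 3, Nat.mod_lt _ (by norm_num)⟩

theorem sw12_inj : ∀ a < 4, ∀ b < 4, sw12 a = sw12 b → a = b := by decide
theorem sw02_inj : ∀ a < 4, ∀ b < 4, sw02 a = sw02 b → a = b := by decide
theorem sw12_3 : ∀ a < 4, sw12 a = 3 ↔ a = 3 := by decide
theorem sw02_3 : ∀ a < 4, sw02 a = 3 ↔ a = 3 := by decide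
theorem sw12_0 : ∀ a < 4, sw12 a = 0 ↔ a = 0 := by decide
theorem cf_inj : ∀ a < 4, ∀ b < 4, a ≠ 3 → b ≠ 3 → cf a = cf b → a = b := by decide

/-- The data of the model. -/
structure Mdl (G : Type*) [Group G] (D : Set G) (Ω : Type*) where
  act : G →* Equiv.Perm Ω
  τ : Ω → G
  τ_mem : ∀ q, τ q ∈ D
  τ_surj : ∀ d ∈ D, ∃ q, τ q = d
  τ_inj : Function.Injective τ
  τ_sq : ∀ q, τ q * τ q = 1
  τ_conj : ∀ g q, g * τ q * g⁻¹ = τ (act g q)
  τ_fix : ∀ g q, act g q = q ↔ Commute g (τ q)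
  gen : Subgroup.closure D = ⊤
  col : Ω → ℕ
  col_lt : ∀ p, col p < 4
  U : Set Ω
  U' : Set Ω
  x0 : Ω
  q0 : Ω
  j0 : Ω
  b0 : Ω
  r0 : Ω
  trans : ∀ p, ∃ g, act g x0 = p
  col_x0 : col x0 = 0
  col_q0 : col q0 = 1
  col_r0 : col r0 = 3
  U'_U : U' ⊆ U
  j0_U : j0 ∈ U
  b0_U' : b0 ∈ U'
  U_col : ∀ u ∈ U, col u = 0
  U_act : ∀ u ∈ U, ∀ p, col (act (τ u) p) = sw12 (col p)
  s_act : ∀ p, col (act (τ q0) p) = sw02 (col p)
  conn0 : ∀ p, col p = 0 → ∃ g ∈ Subgroup.closure (τ '' U), act g x0 = p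
  conn1 : ∀ p, (col p = 1 ∨ col p = 2) → ∃ g ∈ Subgroup.closure (τ '' U), act g q0 = p
  conn3 : ∀ p, col p = 3 → ∃ g ∈ Subgroup.closure (τ '' U), act g r0 = p
  card0 : {p | col p = 0}.ncard = 1080
  cardY : {p | col p ≠ 3}.ncard = 3240
  U'_fix : ∀ u ∈ U', act (τ u) x0 = x0
  U'_ne : x0 ∉ U'
  j0_nfix : act (τ j0) x0 ≠ x0
  fixK : ∀ p, col p ≠ 3 → p ≠ x0 → ∃ u ∈ U', act (τ u) p ≠ p ∧ act (τ u) p ≠ act (τ x0) p
  h351 : ∀ p, col p = 0 → p ≠ x0 → act (τ p) x0 = x0 → τ p ∈ Subgroup.closure (τ '' U')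
  θ : ↥(Subgroup.closure (τ '' U')) →* POm7
  θ_surj : Function.Surjective θ
  θ_ker : ∀ g, θ g = 1 → (g : G) = 1 ∨ (g : G) = τ x0
  hnorm : ∀ g, Commute g (τ x0) → (∀ k ∈ Subgroup.closure (τ '' U'), g * k * g⁻¹ ∈ Subgroup.closure (τ '' U')) →
    ∃ k ∈ Subgroup.closure (τ '' U'), g = k ∨ g = k * τ x0
  A : O8 →* Equiv.Perm {p // col p = 0}
  hA : ∀ u ∈ U, ∃ r : O8, ∀ p : {p // col p = 0}, ((A r p : {p // col p = 0}) : Ω) = act (τ u) p

namespace Mdl

variable {G : Type*} [Group G] {D : Set G} {Ω : Type*} (M : Mdl G D Ω)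

/-- The subgroup of the letters. -/
abbrev K1 : Subgroup G := Subgroup.closure (M.τ '' M.U)
/-- The subgroup of the eight letters. -/
abbrev KK : Subgroup G := Subgroup.closure (M.τ '' M.U')
/-- The large subgroup. -/
abbrev LL : Subgroup G := Subgroup.closure (M.τ '' M.U ∪ {M.τ M.q0})
/-- The base member. -/
abbrev x : G := M.τ M.x0
/-- The centralizer of the base member. -/
abbrev CC : Subgroup G := Subgroup.centralizer ({M.x} : Set G)

theorem mem_CC {g : G} : g ∈ M.CC ↔ Commute g M.x := by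
  rw [Subgroup.mem_centralizer_iff]
  constructor
  · intro h
    exact (h _ rfl).symm
  · rintro h _ rfl
    exact h.eq.symm

theorem mem_CC' (g : G) : g ∈ M.CC ↔ M.act g M.x0 = M.x0 := by
  rw [mem_CC, M.τ_fix]

theorem KK_le_K1 : M.KK ≤ M.K1 := Subgroup.closure_mono (Set.image_mono M.U'_U)
theorem K1_le_LL : M.K1 ≤ M.LL := Subgroup.closure_mono Set.subset_union_left

theorem U_mem_K1 {u : Ω} (hu : u ∈ M.U) : M.τ u ∈ M.K1 := Subgroup.subset_closure ⟨u, hu, rfl⟩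
theorem U'_mem_KK {u : Ω} (hu : u ∈ M.U') : M.τ u ∈ M.KK := Subgroup.subset_closure ⟨u, hu, rfl⟩
theorem q0_mem_LL : M.τ M.q0 ∈ M.LL := Subgroup.subset_closure (Or.inr rfl)

theorem tau_act (g : G) (p : Ω) : M.τ (M.act g p) = g * M.τ p * g⁻¹ := (M.τ_conj g p).symm

theorem x_mem_K1 : M.x ∈ M.K1 := by
  obtain ⟨g, hg, e⟩ := M.conn0 M.j0 (M.U_col _ M.j0_U)
  have h1 : g * M.x * g⁻¹ = M.τ M.j0 := by rw [M.τ_conj, e]
  have h2 : M.x = g⁻¹ * M.τ M.j0 * g := by rw [← h1]; group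
  rw [h2]
  exact M.K1.mul_mem (M.K1.mul_mem (M.K1.inv_mem hg) (M.U_mem_K1 M.j0_U)) hg

theorem col0_mem_K1 {p : Ω} (hp : M.col p = 0) : M.τ p ∈ M.K1 := by
  obtain ⟨g, hg, rfl⟩ := M.conn0 p hp
  rw [tau_act]
  exact M.K1.mul_mem (M.K1.mul_mem hg M.x_mem_K1) (M.K1.inv_mem hg)

theorem col_same {g : G} (hg : g ∈ M.LL) (p p' : Ω) : M.col (M.act g p) = M.col (M.act g p') ↔ M.col p = M.col p' := by
  induction hg using Subgroup.closure_induction generalizing p p' with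
  | mem u hu =>
    rcases hu with ⟨u, hu, rfl⟩ | rfl
    · rw [M.U_act u hu, M.U_act u hu]
      exact ⟨sw12_inj _ (M.col_lt _) _ (M.col_lt _), fun h => by rw [h]⟩
    · rw [M.s_act, M.s_act]
      exact ⟨sw02_inj _ (M.col_lt _) _ (M.col_lt _), fun h => by rw [h]⟩
  | one => simp
  | mul a b _ _ h1 h2 =>
    simp only [map_mul, Equiv.Perm.mul_apply]
    rw [h1, h2]
  | inv a _ h1 =>
    have e : ∀ q, M.act a (M.act a⁻¹ q) = q := fun q => by rw [← Equiv.Perm.mul_apply, ← map_mul]; simp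
    have := h1 (M.act a⁻¹ p) (M.act a⁻¹ p')
    rw [e, e] at this
    exact this.symm

theorem col_three {g : G} (hg : g ∈ M.LL) (p : Ω) : M.col (M.act g p) = 3 ↔ M.col p = 3 := by
  induction hg using Subgroup.closure_induction generalizing p with
  | mem u hu =>
    rcases hu with ⟨u, hu, rfl⟩ | rfl
    · rw [M.U_act u hu]
      exact sw12_3 _ (M.col_lt _)
    · rw [M.s_act]
      exact sw02_3 _ (M.col_lt _)
  | one => simp
  | mul a b _ _ h1 h2 =>
    simp only [map_mul, Equiv.Perm.mul_apply]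
    rw [h1, h2]
  | inv a _ h1 =>
    have e : ∀ q, M.act a (M.act a⁻¹ q) = q := fun q => by rw [← Equiv.Perm.mul_apply, ← map_mul]; simp
    have := h1 (M.act a⁻¹ p)
    rw [e] at this
    exact this.symm

theorem col_zero {g : G} (hg : g ∈ M.K1) (p : Ω) : M.col (M.act g p) = 0 ↔ M.col p = 0 := by
  induction hg using Subgroup.closure_induction generalizing p with
  | mem u hu =>
    rcases hu with ⟨u, hu, rfl⟩
    rw [M.U_act u hu]
    exact sw12_0 _ (M.col_lt _)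
  | one => simp
  | mul a b _ _ h1 h2 =>
    simp only [map_mul, Equiv.Perm.mul_apply]
    rw [h1, h2]
  | inv a _ h1 =>
    have e : ∀ q, M.act a (M.act a⁻¹ q) = q := fun q => by rw [← Equiv.Perm.mul_apply, ← map_mul]; simp
    have := h1 (M.act a⁻¹ p)
    rw [e] at this
    exact this.symm

theorem exists_xi : ∃ ξ : ↥M.LL →* Equiv.Perm (Fin 3), ∀ (g : ↥M.LL) (p : Ω), M.col p ≠ 3 → ξ g (cf (M.col p)) = cf (M.col (M.act g.1 p)) := by
  obtain ⟨ρ, hρ⟩ := exists_restrict (M.act.comp M.LL.subtype) (fun p => M.col p ≠ 3)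
    (fun g p hp h => hp ((M.col_three g.2 p).1 h))
  let c : {p // M.col p ≠ 3} → Fin 3 := fun y => cf (M.col y.1)
  have hq1 : M.col (M.act (M.τ M.b0) M.q0) = 2 := by
    rw [M.U_act _ (M.U'_U M.b0_U'), M.col_q0]
    rfl
  have hsurj : Function.Surjective c := by
    intro i
    have h0 : i = 0 ∨ i = 1 ∨ i = 2 := by
      revert i
      decide
    rcases h0 with rfl | rfl | rfl
    · refine ⟨⟨M.x0, by rw [M.col_x0]; norm_num⟩, ?_⟩
      show cf (M.col M.x0) = 0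
      rw [M.col_x0]
      rfl
    · refine ⟨⟨M.q0, by rw [M.col_q0]; norm_num⟩, ?_⟩
      show cf (M.col M.q0) = 1
      rw [M.col_q0]
      rfl
    · refine ⟨⟨_, by rw [hq1]; norm_num⟩, ?_⟩
      show cf (M.col (M.act (M.τ M.b0) M.q0)) = 2
      rw [hq1]
      rfl
  obtain ⟨ξ, hξ⟩ := exists_quot ρ c hsurj (by
    intro g y y' he
    have h1 : M.col y.1 = M.col y'.1 := cf_inj _ (M.col_lt _) _ (M.col_lt _) y.2 y'.2 he
    show cf (M.col (ρ g y).1) = cf (M.col (ρ g y').1)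
    rw [hρ, hρ]
    show cf (M.col (M.act g.1 y.1)) = cf (M.col (M.act g.1 y'.1))
    rw [(M.col_same g.2 _ _).2 h1])
  refine ⟨ξ, fun g p hp => ?_⟩
  have h1 := hξ g ⟨p, hp⟩
  have h2 : c (ρ g ⟨p, hp⟩) = cf (M.col (M.act g.1 p)) := by
    show cf (M.col (ρ g ⟨p, hp⟩).1) = _
    rw [hρ]
    rfl
  rw [h2] at h1
  exact h1

/-- The action on the three colours. -/
noncomputable def xi : ↥M.LL →* Equiv.Perm (Fin 3) := M.exists_xi.choose

theorem xi_spec (g : ↥M.LL) (p : Ω) (hp : M.col p ≠ 3) : M.xi g (cf (M.col p)) = cf (M.col (M.act g.1 p)) :=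
  M.exists_xi.choose_spec g p hp

theorem col_q1 : M.col (M.act (M.τ M.b0) M.q0) = 2 := by
  rw [M.U_act _ (M.U'_U M.b0_U'), M.col_q0]
  rfl

theorem xi_U {u : Ω} (hu : u ∈ M.U) (h : M.τ u ∈ M.LL) : M.xi ⟨M.τ u, h⟩ = Equiv.swap 1 2 := by
  have h0 := M.xi_spec ⟨M.τ u, h⟩ M.x0 (by rw [M.col_x0]; norm_num)
  have h1 := M.xi_spec ⟨M.τ u, h⟩ M.q0 (by rw [M.col_q0]; norm_num)
  have h2 := M.xi_spec ⟨M.τ u, h⟩ (M.act (M.τ M.b0) M.q0) (by rw [M.col_q1]; norm_num)
  simp only [M.U_act u hu, M.col_x0, M.col_q0, M.col_q1] at h0 h1 h2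
  ext i
  have hi : i = 0 ∨ i = 1 ∨ i = 2 := by
    revert i
    decide
  rcases hi with rfl | rfl | rfl
  · have : cf 0 = 0 := rfl
    rw [this] at h0
    rw [h0]
    rfl
  · have : cf 1 = 1 := rfl
    rw [this] at h1
    rw [h1]
    rfl
  · have : cf 2 = 2 := rfl
    rw [this] at h2
    rw [h2]
    rfl

theorem xi_s : M.xi ⟨M.τ M.q0, M.q0_mem_LL⟩ = Equiv.swap 0 2 := by
  have h0 := M.xi_spec ⟨M.τ M.q0, M.q0_mem_LL⟩ M.x0 (by rw [M.col_x0]; norm_num)
  have h1 := M.xi_spec ⟨M.τ M.q0, M.q0_mem_LL⟩ M.q0 (by rw [M.col_q0]; norm_num)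
  have h2 := M.xi_spec ⟨M.τ M.q0, M.q0_mem_LL⟩ (M.act (M.τ M.b0) M.q0) (by rw [M.col_q1]; norm_num)
  simp only [M.s_act, M.col_x0, M.col_q0, M.col_q1] at h0 h1 h2
  ext i
  have hi : i = 0 ∨ i = 1 ∨ i = 2 := by
    revert i
    decide
  rcases hi with rfl | rfl | rfl
  · have : cf 0 = 0 := rfl
    rw [this] at h0
    rw [h0]
    rfl
  · have : cf 1 = 1 := rfl
    rw [this] at h1
    rw [h1]
    rfl
  · have : cf 2 = 2 := rfl
    rw [this] at h2
    rw [h2]
    rfl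

theorem xi_surj : Function.Surjective M.xi := by
  have hb : M.τ M.b0 ∈ M.LL := M.K1_le_LL (M.U_mem_K1 (M.U'_U M.b0_U'))
  let a : ↥M.LL := ⟨M.τ M.b0, hb⟩
  let b : ↥M.LL := ⟨M.τ M.q0, M.q0_mem_LL⟩
  have ha' : M.xi a = Equiv.swap 1 2 := M.xi_U (M.U'_U M.b0_U') hb
  have hb' : M.xi b = Equiv.swap 0 2 := M.xi_s
  have key : ∀ σ : Equiv.Perm (Fin 3), σ = 1 ∨ σ = Equiv.swap 1 2 ∨ σ = Equiv.swap 0 2 ∨ σ = Equiv.swap 1 2 * Equiv.swap 0 2 ∨
      σ = Equiv.swap 0 2 * Equiv.swap 1 2 ∨ σ = Equiv.swap 1 2 * Equiv.swap 0 2 * Equiv.swap 1 2 := by decide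
  intro σ
  rcases key σ with rfl | rfl | rfl | rfl | rfl | rfl
  · exact ⟨1, map_one _⟩
  · exact ⟨a, ha'⟩
  · exact ⟨b, hb'⟩
  · exact ⟨a * b, by rw [map_mul, ha', hb']⟩
  · exact ⟨b * a, by rw [map_mul, ha', hb']⟩
  · exact ⟨a * b * a, by rw [map_mul, map_mul, ha', hb']⟩

theorem xi_K1 {g : G} (hg : g ∈ M.K1) (h : g ∈ M.LL) : M.xi ⟨g, h⟩ 0 = 0 := by
  have h1 := M.xi_spec ⟨g, h⟩ M.x0 (by rw [M.col_x0]; norm_num)
  have h2 : M.col (M.act g M.x0) = 0 := (M.col_zero hg _).2 M.col_x0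
  simp only [M.col_x0, h2] at h1
  exact h1

theorem KK_le_CC : M.KK ≤ M.CC := by
  rw [Subgroup.closure_le]
  rintro _ ⟨u, hu, rfl⟩
  exact (M.mem_CC' _).2 (M.U'_fix u hu)

theorem KK_le_LL : M.KK ≤ M.LL := M.KK_le_K1.trans M.K1_le_LL


theorem x_ne_one : M.x ≠ 1 := by
  intro h
  apply M.j0_nfix
  rw [M.τ_fix]
  show Commute _ M.x
  rw [h]
  exact Commute.one_right _

theorem x_sq : M.x * M.x = 1 := M.τ_sq _

theorem x_inv : M.x⁻¹ = M.x := inv_eq_of_mul_eq_one_left M.x_sq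

theorem x_not_comm_j : ¬ Commute (M.τ M.j0) M.x := fun h => M.j0_nfix ((M.τ_fix _ _).2 h)

section finite

variable [Finite G]

theorem exists_ker : ∃ g : ↥M.KK, M.θ g = 1 ∧ g ≠ 1 := by
  by_contra hc
  have hinj : Function.Injective M.θ := by
    rw [injective_iff_map_eq_one]
    intro g hg
    by_contra hne
    exact hc ⟨g, hg, hne⟩
  let e : ↥M.KK ≃* POm7 := MulEquiv.ofBijective M.θ ⟨hinj, M.θ_surj⟩
  haveI := simple_POm7
  have hS : IsSimpleGroup ↥M.KK := e.isSimpleGroup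
  let f : ↥M.KK →* Equiv.Perm (Fin 3) := M.xi.comp (Subgroup.inclusion M.KK_le_LL)
  rcases hS.eq_bot_or_eq_top_of_normal f.ker inferInstance with h | h
  · have hfi : Function.Injective f := (MonoidHom.ker_eq_bot_iff f).1 h
    have h1 := Nat.card_le_card_of_injective f hfi
    have h2 : Nat.card ↥M.KK = 4585351680 := by rw [Nat.card_congr e.toEquiv, card_POm7]
    have h3 : Nat.card (Equiv.Perm (Fin 3)) = 6 := by simp [Nat.card_eq_fintype_card, Fintype.card_perm, Nat.factorial]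
    omega
  · have h1 : (⟨M.τ M.b0, M.U'_mem_KK M.b0_U'⟩ : ↥M.KK) ∈ f.ker := by rw [h]; trivial
    rw [MonoidHom.mem_ker] at h1
    have h2 : f ⟨M.τ M.b0, M.U'_mem_KK M.b0_U'⟩ = Equiv.swap 1 2 := M.xi_U (M.U'_U M.b0_U') _
    rw [h2] at h1
    exact absurd h1 (by decide)

theorem x_mem_KK : M.x ∈ M.KK := by
  obtain ⟨g, hg1, hg2⟩ := M.exists_ker
  rcases M.θ_ker g hg1 with h | h
  · exact absurd (Subtype.ext h) hg2
  · show M.τ M.x0 ∈ M.KK
    rw [← h]
    exact g.2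

theorem theta_x : M.θ ⟨M.x, M.x_mem_KK⟩ = 1 := by
  obtain ⟨g, hg1, hg2⟩ := M.exists_ker
  rcases M.θ_ker g hg1 with h | h
  · exact absurd (Subtype.ext h) hg2
  · have : g = ⟨M.x, M.x_mem_KK⟩ := Subtype.ext h
    rw [← this]
    exact hg1

theorem card_KK : Nat.card ↥M.KK = 2 * 4585351680 := by
  classical
  have h1 := Subgroup.card_mul_index M.θ.ker
  rw [Subgroup.index_ker, MonoidHom.range_eq_top.2 M.θ_surj, Subgroup.card_top, card_POm7] at h1
  have h2 : Nat.card ↥M.θ.ker = 2 := by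
    rw [Nat.card_eq_two_iff]
    refine ⟨1, ⟨⟨M.x, M.x_mem_KK⟩, M.theta_x⟩, ?_, ?_⟩
    · intro h
      have := congrArg (fun u : ↥M.θ.ker => ((u : ↥M.KK) : G)) h
      exact M.x_ne_one this.symm
    · ext g
      simp only [Set.mem_insert_iff, Set.mem_singleton_iff, Set.mem_univ, iff_true]
      rcases M.θ_ker g.1 g.2 with h | h
      · left
        exact Subtype.ext (Subtype.ext h)
      · right
        exact Subtype.ext (Subtype.ext h)
  rw [h2] at h1
  exact h1.symm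

theorem col_of_stab {s : G} (hL : s ∈ M.LL) (hC : s ∈ M.CC) {p : Ω} (hp : M.col p = 0) : M.col (M.act s p) = 0 := by
  have h1 := M.xi_spec ⟨s, hL⟩ M.x0 (by rw [M.col_x0]; norm_num)
  have h2 := M.xi_spec ⟨s, hL⟩ p (by rw [hp]; norm_num)
  have h3 : M.act s M.x0 = M.x0 := (M.mem_CC' s).1 hC
  simp only [h3, hp, M.col_x0] at h1 h2
  rw [h1] at h2
  have h4 : M.col (M.act s p) ≠ 3 := fun h => by
    have := (M.col_three hL p).1 h
    rw [hp] at this
    norm_num at this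
  exact cf_inj _ (M.col_lt _) 0 (by norm_num) h4 (by norm_num) h2.symm

theorem conj_mem_KK {s : G} (hL : s ∈ M.LL) (hC : s ∈ M.CC) {k : G} (hk : k ∈ M.KK) : s * k * s⁻¹ ∈ M.KK := by
  induction hk using Subgroup.closure_induction with
  | mem k hk =>
    obtain ⟨u, hu, rfl⟩ := hk
    rw [M.τ_conj]
    have h3 : M.act s M.x0 = M.x0 := (M.mem_CC' s).1 hC
    apply M.h351
    · exact M.col_of_stab hL hC (M.U_col _ (M.U'_U hu))
    · intro h
      rw [← h3] at h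
      exact M.U'_ne ((M.act s).injective h ▸ hu)
    · rw [M.τ_fix, ← M.τ_conj]
      have c1 : Commute s M.x := (M.mem_CC).1 hC
      have c2 : Commute (M.τ u) M.x := (M.mem_CC).1 (M.KK_le_CC (M.U'_mem_KK hu))
      exact (c1.mul_left c2).mul_left c1.inv_left
  | one => simp
  | mul a b _ _ h1 h2 =>
    have : s * (a * b) * s⁻¹ = (s * a * s⁻¹) * (s * b * s⁻¹) := by group
    rw [this]
    exact M.KK.mul_mem h1 h2
  | inv a _ h1 =>
    have : s * a⁻¹ * s⁻¹ = (s * a * s⁻¹)⁻¹ := by group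
    rw [this]
    exact M.KK.inv_mem h1

theorem stab_eq : M.LL ⊓ M.CC = M.KK := by
  apply le_antisymm
  · rintro s ⟨hL, hC⟩
    obtain ⟨k, hk, h | h⟩ := M.hnorm s ((M.mem_CC).1 hC) (fun k hk => M.conj_mem_KK hL hC hk)
    · rw [h]
      exact hk
    · rw [h]
      exact M.KK.mul_mem hk M.x_mem_KK
  · exact le_inf M.KK_le_LL M.KK_le_CC

theorem card_LL : Nat.card ↥M.LL = 3240 * (2 * 4585351680) := by
  have h1 := card_eq_mul M.act M.x0 M.LL M.CC (M.mem_CC') {p | M.col p ≠ 3}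
    (fun g hg h => by
      have := (M.col_three hg _).1 h
      rw [M.col_x0] at this
      norm_num at this)
    (by
      intro p hp
      by_cases h0 : M.col p = 0
      · obtain ⟨g, hg, e⟩ := M.conn0 p h0
        exact ⟨g, M.K1_le_LL hg, e⟩
      · have h1 : M.col p = 1 ∨ M.col p = 2 := by
          have := M.col_lt p
          have h3 : M.col p ≠ 3 := hp
          omega
        obtain ⟨g, hg, e⟩ := M.conn1 p h1
        have h2 : M.col (M.act (M.τ M.q0) M.x0) = 2 := by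
          rw [M.s_act, M.col_x0]
          rfl
        obtain ⟨g', hg', e'⟩ := M.conn1 _ (Or.inr h2)
        refine ⟨g * g'⁻¹ * M.τ M.q0, M.LL.mul_mem (M.LL.mul_mem (M.K1_le_LL hg) (M.LL.inv_mem (M.K1_le_LL hg'))) M.q0_mem_LL, ?_⟩
        rw [map_mul, map_mul, Equiv.Perm.mul_apply, Equiv.Perm.mul_apply, ← e', map_inv]
        simp [e])
  rw [M.cardY, M.stab_eq, M.card_KK] at h1
  exact h1

theorem trans_L {p : Ω} (hp : M.col p ≠ 3) : ∃ g ∈ M.LL, M.act g M.x0 = p := by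
  by_cases h0 : M.col p = 0
  · obtain ⟨g, hg, e⟩ := M.conn0 p h0
    exact ⟨g, M.K1_le_LL hg, e⟩
  · have h1 : M.col p = 1 ∨ M.col p = 2 := by
      have := M.col_lt p
      omega
    obtain ⟨g, hg, e⟩ := M.conn1 p h1
    have h2 : M.col (M.act (M.τ M.q0) M.x0) = 2 := by
      rw [M.s_act, M.col_x0]
      rfl
    obtain ⟨g', hg', e'⟩ := M.conn1 _ (Or.inr h2)
    refine ⟨g * g'⁻¹ * M.τ M.q0, M.LL.mul_mem (M.LL.mul_mem (M.K1_le_LL hg) (M.LL.inv_mem (M.K1_le_LL hg'))) M.q0_mem_LL, ?_⟩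
    rw [map_mul, map_mul, Equiv.Perm.mul_apply, Equiv.Perm.mul_apply, ← e', map_inv]
    simp [e]


theorem comm_le_self (H : Subgroup G) : ⁅H, H⁆ ≤ H := by
  rw [Subgroup.commutator_le]
  intro a ha b hb
  rw [commutatorElement_def]
  exact H.mul_mem (H.mul_mem (H.mul_mem ha hb) (H.inv_mem ha)) (H.inv_mem hb)

theorem conj_mem_comm {H : Subgroup G} {g n : G} (hg : g ∈ H) (hn : n ∈ ⁅H, H⁆) : g * n * g⁻¹ ∈ ⁅H, H⁆ := by
  rw [← Subgroup.map_subtype_commutator] at hn ⊢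
  obtain ⟨n', hn', rfl⟩ := hn
  refine ⟨⟨g, hg⟩ * n' * (⟨g, hg⟩ : H)⁻¹, (inferInstance : (commutator H).Normal).conj_mem _ hn' _, rfl⟩

/-- The commutator subgroup of the group of the letters. -/
abbrev NN : Subgroup G := ⁅M.K1, M.K1⁆

theorem NN_le : M.NN ≤ M.K1 := comm_le_self _

theorem mem_cases {k : G} (hk : k ∈ M.K1) : k ∈ M.NN ∨ k * M.x ∈ M.NN := by
  have hx := M.x_mem_K1
  have hxi := M.K1.inv_mem hx
  induction hk using Subgroup.closure_induction with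
  | mem k hk =>
    right
    obtain ⟨u, hu, rfl⟩ := hk
    obtain ⟨g, hg, e⟩ := M.conn0 u (M.U_col u hu)
    rw [← e, tau_act]
    have : g * M.x * g⁻¹ * M.x = ⁅g, M.x⁆ := by rw [commutatorElement_def, M.x_inv]
    rw [this]
    exact Subgroup.commutator_mem_commutator hg hx
  | one =>
    left
    exact M.NN.one_mem
  | mul a b ha hb h1 h2 =>
    rcases h1 with h1 | h1 <;> rcases h2 with h2 | h2
    · left
      exact M.NN.mul_mem h1 h2
    · right
      rw [mul_assoc]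
      exact M.NN.mul_mem h1 h2
    · right
      have e : a * b * M.x = (a * M.x) * (M.x⁻¹ * b * M.x⁻¹⁻¹) := by
        rw [inv_inv]
        group
      rw [e]
      exact M.NN.mul_mem h1 (conj_mem_comm hxi h2)
    · left
      have e : a * b = (a * M.x) * (M.x⁻¹ * (b * M.x) * M.x⁻¹⁻¹) := by
        rw [inv_inv]
        have h3 := M.x_sq
        calc a * b = a * b * (M.x * M.x) := by rw [h3, mul_one]
          _ = _ := by group
      rw [e]
      exact M.NN.mul_mem h1 (conj_mem_comm hxi h2)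
  | inv a ha h1 =>
    rcases h1 with h1 | h1
    · left
      exact M.NN.inv_mem h1
    · right
      have e : a⁻¹ * M.x = M.x * (a * M.x)⁻¹ * M.x⁻¹ := by
        have e2 : M.x * (a * M.x)⁻¹ * M.x⁻¹ = a⁻¹ * M.x⁻¹ := by group
        rw [e2, M.x_inv]
      rw [e]
      exact conj_mem_comm hx (M.NN.inv_mem h1)

theorem card_K1_le : Nat.card ↥M.K1 ≤ 2 * Nat.card ↥M.NN := by
  classical
  let f : ↥M.K1 → ↥M.NN × Bool := fun k =>
    if h : k.1 ∈ M.NN then (⟨k.1, h⟩, false) else (⟨k.1 * M.x, (M.mem_cases k.2).resolve_left h⟩, true)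
  have hf : Function.Injective f := by
    rintro ⟨a, ha⟩ ⟨b, hb⟩ he
    apply Subtype.ext
    simp only [f] at he
    by_cases h1 : a ∈ M.NN <;> by_cases h2 : b ∈ M.NN
    · simp only [h1, h2, dif_pos, Prod.mk.injEq, Subtype.mk.injEq] at he
      exact he.1
    · simp [h1, h2] at he
    · simp [h1, h2] at he
    · simp only [h1, h2, dif_neg, not_false_eq_true, Prod.mk.injEq, Subtype.mk.injEq, and_true] at he
      exact mul_right_cancel he
  have h1 := Nat.card_le_card_of_injective f hf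
  rw [Nat.card_prod, Nat.card_eq_fintype_card (α := Bool), Fintype.card_bool, mul_comm] at h1
  exact h1

theorem x_fix : M.act M.x M.x0 = M.x0 := (M.τ_fix _ _).2 (Commute.refl _)

theorem N_trans {p : Ω} (hp : M.col p = 0) : ∃ n ∈ M.NN, M.act n M.x0 = p := by
  obtain ⟨g, hg, e⟩ := M.conn0 p hp
  rcases M.mem_cases hg with h | h
  · exact ⟨g, h, e⟩
  · refine ⟨g * M.x, h, ?_⟩
    rw [map_mul, Equiv.Perm.mul_apply, M.x_fix, e]

theorem card_K1_ge : 1080 * (2 * 4585351680) ≤ Nat.card ↥M.K1 := by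
  have h1 := card_eq_mul M.act M.x0 M.K1 M.CC (M.mem_CC') {p | M.col p = 0}
    (fun g hg => (M.col_zero hg _).2 M.col_x0) (fun p hp => M.conn0 p hp)
  rw [M.card0] at h1
  rw [h1, ← M.card_KK]
  apply Nat.mul_le_mul_left
  exact Subgroup.card_le_of_le (le_inf M.KK_le_K1 M.KK_le_CC)

theorem card_NN_ge : 4952179814400 ≤ Nat.card ↥M.NN := by
  have h1 := M.card_K1_le
  have h2 := M.card_K1_ge
  omega

theorem exists_rho : ∃ ρ : ↥M.K1 →* Equiv.Perm {p // M.col p = 0}, ∀ g (y : {p // M.col p = 0}), ((ρ g y : {p // M.col p = 0}) : Ω) = M.act g.1 y :=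
  exists_restrict (M.act.comp M.K1.subtype) (fun p => M.col p = 0) (fun g p hp => (M.col_zero g.2 p).2 hp)

/-- The action on the points of the first colour. -/
noncomputable def rho : ↥M.K1 →* Equiv.Perm {p // M.col p = 0} := M.exists_rho.choose

theorem rho_spec (g : ↥M.K1) (y : {p // M.col p = 0}) : ((M.rho g y : {p // M.col p = 0}) : Ω) = M.act g.1 y :=
  M.exists_rho.choose_spec g y

theorem rho_range {g : G} (hg : g ∈ M.K1) : M.rho ⟨g, hg⟩ ∈ M.A.range := by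
  induction hg using Subgroup.closure_induction with
  | mem u hu =>
    obtain ⟨u, hu, rfl⟩ := hu
    obtain ⟨r, hr⟩ := M.hA u hu
    refine ⟨r, ?_⟩
    ext y
    rw [hr, rho_spec]
  | one =>
    have : M.rho ⟨1, M.K1.one_mem⟩ = 1 := map_one M.rho
    rw [this]
    exact M.A.range.one_mem
  | mul a b ha hb h1 h2 =>
    have : M.rho ⟨a * b, M.K1.mul_mem ha hb⟩ = M.rho ⟨a, ha⟩ * M.rho ⟨b, hb⟩ := map_mul M.rho ⟨a, ha⟩ ⟨b, hb⟩
    rw [this]
    exact M.A.range.mul_mem h1 h2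
  | inv a ha h1 =>
    have : M.rho ⟨a⁻¹, M.K1.inv_mem ha⟩ = (M.rho ⟨a, ha⟩)⁻¹ := map_inv M.rho ⟨a, ha⟩
    rw [this]
    exact M.A.range.inv_mem h1

theorem rho_N {n : G} (hn : n ∈ M.NN) : ∃ h : n ∈ M.K1, M.rho ⟨n, h⟩ ∈ (commutator ↥O8).map M.A := by
  have hn' : n ∈ ⁅M.K1, M.K1⁆ := hn
  rw [Subgroup.commutator_def] at hn'
  clear hn
  induction hn' using Subgroup.closure_induction with
  | mem n hn =>
    obtain ⟨a, ha, b, hb, rfl⟩ := hn
    refine ⟨M.K1.mul_mem (M.K1.mul_mem (M.K1.mul_mem ha hb) (M.K1.inv_mem ha)) (M.K1.inv_mem hb), ?_⟩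
    obtain ⟨r, hr⟩ := M.rho_range ha
    obtain ⟨r', hr'⟩ := M.rho_range hb
    have e : M.rho ⟨⁅a, b⁆, M.K1.mul_mem (M.K1.mul_mem (M.K1.mul_mem ha hb) (M.K1.inv_mem ha)) (M.K1.inv_mem hb)⟩ = ⁅M.rho ⟨a, ha⟩, M.rho ⟨b, hb⟩⁆ := by
      rw [← map_commutatorElement]
      rfl
    rw [e, ← hr, ← hr', ← map_commutatorElement]
    exact ⟨⁅r, r'⁆, by rw [commutator_def]; exact Subgroup.commutator_mem_commutator (Subgroup.mem_top _) (Subgroup.mem_top _), rfl⟩
  | one => exact ⟨M.K1.one_mem, by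
      have : M.rho ⟨1, M.K1.one_mem⟩ = 1 := map_one M.rho
      rw [this]
      exact Subgroup.one_mem _⟩
  | mul a b ha hb h1 h2 =>
    obtain ⟨h3, h4⟩ := h1
    obtain ⟨h5, h6⟩ := h2
    refine ⟨M.K1.mul_mem h3 h5, ?_⟩
    have : M.rho ⟨a * b, M.K1.mul_mem h3 h5⟩ = M.rho ⟨a, h3⟩ * M.rho ⟨b, h5⟩ := map_mul M.rho ⟨a, h3⟩ ⟨b, h5⟩
    rw [this]
    exact Subgroup.mul_mem _ h4 h6
  | inv a ha h1 =>
    obtain ⟨h3, h4⟩ := h1
    refine ⟨M.K1.inv_mem h3, ?_⟩
    have : M.rho ⟨a⁻¹, M.K1.inv_mem h3⟩ = (M.rho ⟨a, h3⟩)⁻¹ := map_inv M.rho ⟨a, h3⟩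
    rw [this]
    exact Subgroup.inv_mem _ h4

theorem comm_of_comm_gens {g : G} (hg : ∀ u ∈ M.U', Commute g (M.τ u)) {k : G} (hk : k ∈ M.KK) : Commute g k := by
  induction hk using Subgroup.closure_induction with
  | mem k hk =>
    obtain ⟨u, hu, rfl⟩ := hk
    exact hg u hu
  | one => exact Commute.one_right _
  | mul a b _ _ h1 h2 => exact h1.mul_right h2
  | inv a _ h1 => exact h1.inv_right

theorem theta_central {c : G} (hc : c ∈ M.KK) (h : ∀ k ∈ M.KK, Commute c k) : c = 1 ∨ c = M.x := by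
  apply M.θ_ker ⟨c, hc⟩
  apply center_POm7
  intro y
  obtain ⟨w, rfl⟩ := M.θ_surj y
  rw [← map_mul, ← map_mul]
  congr 1
  exact Subtype.ext (h w.1 w.2).eq

theorem rho_inj : Function.Injective M.rho := by
  rw [injective_iff_map_eq_one]
  rintro ⟨g, hg⟩ h
  have h1 : ∀ p, M.col p = 0 → M.act g p = p := by
    intro p hp
    have h2 := M.rho_spec ⟨g, hg⟩ ⟨p, hp⟩
    rw [h] at h2
    exact h2.symm
  have hc : g ∈ M.CC := (M.mem_CC' g).2 (h1 _ M.col_x0)
  have hk : g ∈ M.KK := by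
    rw [← M.stab_eq]
    exact ⟨M.K1_le_LL hg, hc⟩
  have hcu : ∀ u ∈ M.U', Commute g (M.τ u) := fun u hu => (M.τ_fix _ _).1 (h1 u (M.U_col _ (M.U'_U hu)))
  rcases M.theta_central hk (fun k hk => M.comm_of_comm_gens hcu hk) with h2 | h2
  · exact Subtype.ext h2
  · exfalso
    have h3 := (M.τ_fix g M.j0).1 (h1 _ (M.U_col _ M.j0_U))
    rw [h2] at h3
    exact M.x_not_comm_j h3.symm

/-- The derived subgroup of the group of the eight letters. -/
abbrev KD : Subgroup G := ⁅M.KK, M.KK⁆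

theorem KD_le_NN : M.KD ≤ M.NN := Subgroup.commutator_mono M.KK_le_K1 M.KK_le_K1
theorem KD_le_KK : M.KD ≤ M.KK := comm_le_self _

theorem theta_KD (y : POm7) : ∃ k ∈ M.KD, ∃ h : k ∈ M.KK, M.θ ⟨k, h⟩ = y := by
  have h1 : (commutator ↥M.KK).map M.θ = ⊤ := by
    rw [commutator_def, Subgroup.map_commutator, ← MonoidHom.range_eq_map, MonoidHom.range_eq_top.2 M.θ_surj, ← commutator_def, perfect_POm7]
  have h2 : y ∈ (commutator ↥M.KK).map M.θ := by rw [h1]; trivial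
  obtain ⟨k, hk, rfl⟩ := h2
  refine ⟨k.1, ?_, k.2, rfl⟩
  show k.1 ∈ ⁅M.KK, M.KK⁆
  rw [← Subgroup.map_subtype_commutator]
  exact ⟨k, hk, rfl⟩

theorem KK_cases {k : G} (hk : k ∈ M.KK) : ∃ k' ∈ M.KD, k = k' ∨ k = k' * M.x := by
  obtain ⟨k', h1, h2, h3⟩ := M.theta_KD (M.θ ⟨k, hk⟩)
  refine ⟨k', h1, ?_⟩
  have h4 : M.θ ((⟨k', h2⟩ : ↥M.KK)⁻¹ * ⟨k, hk⟩) = 1 := by
    rw [map_mul, map_inv, h3, inv_mul_cancel]
  rcases M.θ_ker _ h4 with h | h
  · left
    have h5 : k'⁻¹ * k = 1 := h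
    exact (inv_mul_eq_one.1 h5).symm
  · right
    have h5 : k'⁻¹ * k = M.x := h
    rw [← h5]
    group

theorem fixKD {p : Ω} (hp : M.col p ≠ 3) (h : ∀ k ∈ M.KD, M.act k p = p) : p = M.x0 := by
  by_contra hne
  obtain ⟨u, hu, h1, h2⟩ := M.fixK p hp hne
  obtain ⟨k', hk', h3 | h3⟩ := M.KK_cases (M.U'_mem_KK hu)
  · rw [h3] at h1
    exact h1 (h k' hk')
  · apply h2
    rw [h3, map_mul, Equiv.Perm.mul_apply]
    have c1 : Commute k' M.x := (M.mem_CC).1 (M.KK_le_CC (M.KD_le_KK hk'))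
    have h4 : M.act k' (M.act M.x p) = M.act M.x (M.act k' p) := by
      rw [← Equiv.Perm.mul_apply, ← map_mul, c1.eq, map_mul, Equiv.Perm.mul_apply]
    rw [h4, h k' hk']

/-- The action of the commutator subgroup of the orthogonal group. -/
noncomputable def Aω : ↥(commutator ↥O8) →* Equiv.Perm {p // M.col p = 0} := M.A.comp (commutator ↥O8).subtype

theorem rho_N' {n : G} (hn : n ∈ M.NN) (h : n ∈ M.K1) : M.rho ⟨n, h⟩ ∈ M.Aω.range := by
  obtain ⟨h', ω, hω, e⟩ := M.rho_N hn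
  exact ⟨⟨ω, hω⟩, e⟩

theorem central_trivial {z : Equiv.Perm {p // M.col p = 0}} (hz : ∀ (n : G) (hn : n ∈ M.NN) (h : n ∈ M.K1), z * M.rho ⟨n, h⟩ = M.rho ⟨n, h⟩ * z) : z = 1 := by
  let xh : {p // M.col p = 0} := ⟨M.x0, M.col_x0⟩
  have h1 : ∀ y : {p // M.col p = 0}, ∀ n (hn : n ∈ M.NN), z (M.rho ⟨n, M.NN_le hn⟩ y) = M.rho ⟨n, M.NN_le hn⟩ (z y) := by
    intro y n hn
    have := congrArg (fun σ => σ y) (hz n hn (M.NN_le hn))
    simpa using this
  have h2 : z xh = xh := by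
    apply Subtype.ext
    apply M.fixKD (by rw [(z xh).2]; norm_num)
    intro k hk
    have hkN := M.KD_le_NN hk
    have h3 := h1 xh k hkN
    have h4 : M.rho ⟨k, M.NN_le hkN⟩ xh = xh := by
      apply Subtype.ext
      rw [M.rho_spec]
      exact (M.mem_CC' k).1 (M.KK_le_CC (M.KD_le_KK hk))
    rw [h4] at h3
    have h5 := congrArg Subtype.val h3
    rw [M.rho_spec] at h5
    exact h5.symm
  ext y
  obtain ⟨n, hn, e⟩ := M.N_trans y.2
  have h3 : y = M.rho ⟨n, M.NN_le hn⟩ xh := by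
    apply Subtype.ext
    rw [M.rho_spec]
    exact e.symm
  rw [h3, h1 xh n hn, h2]
  rfl

theorem ker_Aω : M.Aω.ker = Subgroup.center ↥(commutator ↥O8) := by
  apply le_antisymm
  · let mk := QuotientGroup.mk' (Subgroup.center ↥(commutator ↥O8))
    have hsurj : Function.Surjective mk := QuotientGroup.mk'_surjective _
    have hnorm : (M.Aω.ker.map mk).Normal := Subgroup.Normal.map inferInstance mk hsurj
    rcases simple_POm8.eq_bot_or_eq_top_of_normal _ hnorm with h | h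
    · intro ω hω
      have h1 : mk ω ∈ M.Aω.ker.map mk := ⟨ω, hω, rfl⟩
      rw [h, Subgroup.mem_bot] at h1
      exact (QuotientGroup.eq_one_iff _).1 h1
    · exfalso
      have h1 : ∀ ω : ↥(commutator ↥O8), ∃ z ∈ Subgroup.center ↥(commutator ↥O8), M.Aω ω = M.Aω z := by
        intro ω
        have h2 : mk ω ∈ M.Aω.ker.map mk := by rw [h]; trivial
        obtain ⟨m, hm, e⟩ := h2
        have h3 : m⁻¹ * ω ∈ Subgroup.center ↥(commutator ↥O8) := by
          apply QuotientGroup.eq.1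
          exact e
        refine ⟨m⁻¹ * ω, h3, ?_⟩
        rw [map_mul, map_inv, MonoidHom.mem_ker.1 hm]
        simp
      have h2 : ∀ ω ω' : ↥(commutator ↥O8), M.Aω ω * M.Aω ω' = M.Aω ω' * M.Aω ω := by
        intro ω ω'
        obtain ⟨z, hz, e⟩ := h1 ω
        rw [e, ← map_mul, ← map_mul, (Subgroup.mem_center_iff.1 hz ω').symm]
      have h3 : ∀ n ∈ M.NN, ∀ n' ∈ M.NN, n * n' = n' * n := by
        intro n hn n' hn'
        obtain ⟨ω, e⟩ := M.rho_N' hn (M.NN_le hn)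
        obtain ⟨ω', e'⟩ := M.rho_N' hn' (M.NN_le hn')
        have h4 : M.rho (⟨n, M.NN_le hn⟩ * ⟨n', M.NN_le hn'⟩) = M.rho (⟨n', M.NN_le hn'⟩ * ⟨n, M.NN_le hn⟩) := by
          rw [map_mul, map_mul, ← e, ← e', h2]
        exact congrArg Subtype.val (M.rho_inj h4)
      apply not_comm_POm7
      intro u v
      obtain ⟨k, hk, hk', rfl⟩ := M.theta_KD u
      obtain ⟨l, hl, hl', rfl⟩ := M.theta_KD v
      rw [← map_mul, ← map_mul]
      congr 1
      exact Subtype.ext (h3 k (M.KD_le_NN hk) l (M.KD_le_NN hl))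
  · intro ω hω
    rw [MonoidHom.mem_ker]
    apply M.central_trivial
    intro n hn h
    obtain ⟨ω', e⟩ := M.rho_N' hn h
    rw [← e, ← map_mul, ← map_mul, (Subgroup.mem_center_iff.1 hω ω').symm]

theorem exists_e8 : Nonempty (POm8 ≃* M.Aω.range) :=
  ⟨(QuotientGroup.quotientMulEquivOfEq M.ker_Aω.symm).trans (QuotientGroup.quotientKerEquivRange M.Aω)⟩

theorem equiv_NN : Nonempty (↥M.NN ≃* POm8) ∧ Nat.card ↥M.NN = 4952179814400 := by
  obtain ⟨e8⟩ := M.exists_e8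
  let ρN : ↥M.NN →* Equiv.Perm {p // M.col p = 0} := M.rho.comp (Subgroup.inclusion M.NN_le)
  have hinj : Function.Injective ρN := M.rho_inj.comp (Subgroup.inclusion_injective M.NN_le)
  have hle : ρN.range ≤ M.Aω.range := by
    rintro _ ⟨n, rfl⟩
    exact M.rho_N' n.2 (M.NN_le n.2)
  haveI : Finite ↥M.Aω.range := Finite.of_equiv _ e8.toEquiv
  have hc1 : Nat.card ↥M.Aω.range = 4952179814400 := by
    rw [← Nat.card_congr e8.toEquiv, card_POm8]
  have hc2 : Nat.card ↥ρN.range = Nat.card ↥M.NN := (Nat.card_congr (MonoidHom.ofInjective hinj).toEquiv).symm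
  have he : ρN.range = M.Aω.range := Subgroup.eq_of_le_of_card_ge hle (by
    rw [hc1, hc2]
    exact M.card_NN_ge)
  refine ⟨⟨(MonoidHom.ofInjective hinj).trans ((MulEquiv.subgroupCongr he).trans e8.symm)⟩, ?_⟩
  rw [← hc2, he, hc1]


theorem NN_le_LL : M.NN ≤ M.LL := M.NN_le.trans M.K1_le_LL

theorem xi_N {n : G} (hn : n ∈ M.NN) : ∃ h : n ∈ M.LL, M.xi ⟨n, h⟩ = 1 := by
  have hn' : n ∈ ⁅M.K1, M.K1⁆ := hn
  rw [Subgroup.commutator_def] at hn'
  clear hn
  have key : ∀ σ τ : Equiv.Perm (Fin 3), σ 0 = 0 → τ 0 = 0 → σ * τ = τ * σ := by decide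
  induction hn' using Subgroup.closure_induction with
  | mem n hn =>
    obtain ⟨a, ha, b, hb, rfl⟩ := hn
    have hal := M.K1_le_LL ha
    have hbl := M.K1_le_LL hb
    refine ⟨M.LL.mul_mem (M.LL.mul_mem (M.LL.mul_mem hal hbl) (M.LL.inv_mem hal)) (M.LL.inv_mem hbl), ?_⟩
    have e : M.xi ⟨⁅a, b⁆, M.LL.mul_mem (M.LL.mul_mem (M.LL.mul_mem hal hbl) (M.LL.inv_mem hal)) (M.LL.inv_mem hbl)⟩ = ⁅M.xi ⟨a, hal⟩, M.xi ⟨b, hbl⟩⁆ := by
      rw [← map_commutatorElement]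
      rfl
    rw [e, commutatorElement_eq_one_iff_mul_comm]
    exact key _ _ (M.xi_K1 ha hal) (M.xi_K1 hb hbl)
  | one => exact ⟨M.LL.one_mem, map_one M.xi⟩
  | mul a b ha hb h1 h2 =>
    obtain ⟨h3, h4⟩ := h1
    obtain ⟨h5, h6⟩ := h2
    refine ⟨M.LL.mul_mem h3 h5, ?_⟩
    have : M.xi ⟨a * b, M.LL.mul_mem h3 h5⟩ = M.xi ⟨a, h3⟩ * M.xi ⟨b, h5⟩ := map_mul M.xi ⟨a, h3⟩ ⟨b, h5⟩
    rw [this, h4, h6, one_mul]
  | inv a ha h1 =>
    obtain ⟨h3, h4⟩ := h1
    refine ⟨M.LL.inv_mem h3, ?_⟩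
    have : M.xi ⟨a⁻¹, M.LL.inv_mem h3⟩ = (M.xi ⟨a, h3⟩)⁻¹ := map_inv M.xi ⟨a, h3⟩
    rw [this, h4, inv_one]

theorem card_W : Nat.card ↥M.xi.ker = 4952179814400 := by
  have h1 := Subgroup.card_mul_index M.xi.ker
  rw [Subgroup.index_ker, MonoidHom.range_eq_top.2 M.xi_surj, Subgroup.card_top, M.card_LL] at h1
  have h3 : Nat.card (Equiv.Perm (Fin 3)) = 6 := by simp [Nat.card_eq_fintype_card, Fintype.card_perm, Nat.factorial]
  rw [h3] at h1
  omega

theorem W_eq : M.NN.subgroupOf M.LL = M.xi.ker := by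
  apply Subgroup.eq_of_le_of_card_ge
  · rintro g hg
    obtain ⟨h, e⟩ := M.xi_N (n := g.1) hg
    exact e
  · rw [M.card_W, Nat.card_congr (Subgroup.subgroupOfEquivOfLe M.NN_le_LL).toEquiv, M.equiv_NN.2]

theorem equiv_W : Nonempty (↥M.xi.ker ≃* POm8) := by
  obtain ⟨eN⟩ := M.equiv_NN.1
  exact ⟨(MulEquiv.subgroupCongr M.W_eq.symm).trans ((Subgroup.subgroupOfEquivOfLe M.NN_le_LL).trans eN)⟩

theorem theta_central' {c : G} (hc : c ∈ M.KK) (h : ∀ k ∈ M.KD, Commute c k) : c = 1 ∨ c = M.x := by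
  apply M.θ_ker ⟨c, hc⟩
  apply center_POm7
  intro y
  obtain ⟨k, hk, hk', rfl⟩ := M.theta_KD y
  rw [← map_mul, ← map_mul]
  congr 1
  exact Subtype.ext (h k hk).eq

theorem gfit_eq : Cfsg.generalizedFittingSubgroup ↥M.LL = M.xi.ker := by
  obtain ⟨eW⟩ := M.equiv_W
  haveI := simple_POm8
  have hS : IsSimpleGroup ↥M.xi.ker := eW.isSimpleGroup
  apply Cfsg.Agent.Lib.ThreeT.M24d.gFit_simple M.xi.ker inferInstance hS
  · intro h
    apply Cfsg.Agent.Lib.ThreeT.M24d.not_comm_of_simple simple_POm8 (by rw [card_POm8]; norm_num)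
    intro u v
    apply eW.symm.injective
    rw [map_mul, map_mul]
    exact Subtype.ext (h _ (eW.symm u).2 _ (eW.symm v).2).eq
  · intro c hc
    have hfixk : ∀ k ∈ M.KD, M.act k M.x0 = M.x0 := fun k hk => (M.mem_CC' k).1 (M.KK_le_CC (M.KD_le_KK hk))
    have hcN : ∀ n (hn : n ∈ M.NN), c.1 * n = n * c.1 := by
      intro n hn
      obtain ⟨hl, he⟩ := M.xi_N hn
      exact congrArg Subtype.val (hc ⟨n, hl⟩ he).eq
    have h1 : ∀ k ∈ M.KD, M.act k (M.act c.1 M.x0) = M.act c.1 M.x0 := by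
      intro k hk
      rw [← Equiv.Perm.mul_apply, ← map_mul, ← hcN k (M.KD_le_NN hk), map_mul, Equiv.Perm.mul_apply, hfixk k hk]
    have hp : M.col (M.act c.1 M.x0) ≠ 3 := fun h => by
      have := (M.col_three c.2 _).1 h
      rw [M.col_x0] at this
      norm_num at this
    have h2 := M.fixKD hp h1
    have hcK : c.1 ∈ M.KK := by
      rw [← M.stab_eq]
      exact ⟨c.2, (M.mem_CC' _).2 h2⟩
    rcases M.theta_central' hcK (fun k hk => hcN k (M.KD_le_NN hk)) with h3 | h3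
    · exact Subtype.ext h3
    · exfalso
      obtain ⟨n, hn, e⟩ := M.N_trans (M.U_col _ M.j0_U)
      have h4 := hcN n hn
      rw [h3] at h4
      have h5 : M.τ M.j0 = M.x := by
        rw [← e, tau_act, ← h4]
        group
      apply M.j0_nfix
      have h6 : M.j0 = M.x0 := M.τ_inj h5
      rw [h6]
      exact M.x_fix

theorem sign_xi_x (h : M.x ∈ M.LL) : Equiv.Perm.sign (M.xi ⟨M.x, h⟩) = -1 := by
  obtain ⟨g, hg, e⟩ := M.conn0 M.j0 (M.U_col _ M.j0_U)
  have hgl := M.K1_le_LL hg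
  have hj : M.τ M.j0 ∈ M.LL := M.K1_le_LL (M.U_mem_K1 M.j0_U)
  have h1 : (⟨M.x, h⟩ : ↥M.LL) = (⟨g, hgl⟩ : ↥M.LL)⁻¹ * ⟨M.τ M.j0, hj⟩ * ⟨g, hgl⟩ := by
    apply Subtype.ext
    show M.x = g⁻¹ * M.τ M.j0 * g
    rw [← e, tau_act]
    group
  rw [h1, map_mul, map_mul, map_mul, map_mul, M.xi_U M.j0_U hj, map_inv, map_inv, Equiv.Perm.sign_swap (by decide)]
  rw [mul_comm ((Equiv.Perm.sign (M.xi ⟨g, hgl⟩))⁻¹), mul_assoc, inv_mul_cancel, mul_one]

theorem equiv_KK : Nonempty (↥M.KK ≃* Multiplicative (ZMod 2) × POm7) := by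
  let f : ↥M.KK →* ℤˣ × POm7 :=
    MonoidHom.prod (Equiv.Perm.sign.comp (M.xi.comp (Subgroup.inclusion M.KK_le_LL))) M.θ
  have hinj : Function.Injective f := by
    rw [injective_iff_map_eq_one]
    intro g hg
    have h1 : M.θ g = 1 := congrArg Prod.snd hg
    rcases M.θ_ker g h1 with h | h
    · exact Subtype.ext h
    · exfalso
      have h2 : Equiv.Perm.sign (M.xi ⟨g.1, M.KK_le_LL g.2⟩) = 1 := congrArg Prod.fst hg
      have h3 : (⟨g.1, M.KK_le_LL g.2⟩ : ↥M.LL) = ⟨M.x, M.KK_le_LL M.x_mem_KK⟩ := Subtype.ext h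
      rw [h3, M.sign_xi_x] at h2
      exact absurd h2 (by decide)
  have hcard : Nat.card (ℤˣ × POm7) = Nat.card ↥M.KK := by
    rw [Nat.card_prod, M.card_KK, card_POm7, Nat.card_eq_fintype_card (α := ℤˣ), Fintype.card_units_int]
  have hbij : Function.Bijective f := Function.Injective.bijective_of_nat_card_le hinj hcard.le
  haveI : Fact (Nat.Prime 2) := ⟨Nat.prime_two⟩
  have e2 : ℤˣ ≃* Multiplicative (ZMod 2) := mulEquivOfPrimeCardEq
    (by rw [Nat.card_eq_fintype_card, Fintype.card_units_int])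
    (by rw [Nat.card_eq_fintype_card]; rfl)
  exact ⟨(MulEquiv.ofBijective f hbij).trans (MulEquiv.prodCongr e2 (MulEquiv.refl _))⟩

theorem col_ne_three {q : Ω} (hq : M.τ q ∈ M.LL) : M.col q ≠ 3 := by
  intro h3
  have hall : ∀ p, M.τ p ∈ M.LL := by
    intro p
    by_cases hp : M.col p = 3
    · obtain ⟨a, ha, e⟩ := M.conn3 q h3
      obtain ⟨b, hb, e'⟩ := M.conn3 p hp
      have hal := M.K1_le_LL ha
      have hbl := M.K1_le_LL hb
      have h1 : p = M.act (b * a⁻¹) q := by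
        rw [← e, ← e', map_mul, map_inv, Equiv.Perm.mul_apply]
        simp
      rw [h1, tau_act]
      have hc := M.LL.mul_mem hbl (M.LL.inv_mem hal)
      exact M.LL.mul_mem (M.LL.mul_mem hc hq) (M.LL.inv_mem hc)
    · obtain ⟨g, hg, rfl⟩ := M.trans_L hp
      rw [tau_act]
      exact M.LL.mul_mem (M.LL.mul_mem hg (M.K1_le_LL M.x_mem_K1)) (M.LL.inv_mem hg)
  have htop : M.LL = ⊤ := by
    rw [eq_top_iff, ← M.gen, Subgroup.closure_le]
    intro d hd
    obtain ⟨p, rfl⟩ := M.τ_surj d hd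
    exact hall p
  obtain ⟨g, e⟩ := M.trans q
  have hg : g ∈ M.LL := by rw [htop]; trivial
  have := (M.col_three hg M.x0).1 (by rw [e]; exact h3)
  rw [M.col_x0] at this
  norm_num at this

theorem equiv_stab {d : G} (hd : d ∈ D) (hdL : d ∈ M.LL) :
    Nonempty (↥(M.LL ⊓ Subgroup.centralizer ({d} : Set G)) ≃* ↥M.KK) := by
  obtain ⟨q, rfl⟩ := M.τ_surj d hd
  obtain ⟨g, hg, rfl⟩ := M.trans_L (M.col_ne_three hdL)
  have hd' : M.τ (M.act g M.x0) = g * M.x * g⁻¹ := M.tau_act g M.x0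
  let f : G →* G := (MulAut.conj g).toMonoidHom
  have hfv : ∀ y, f y = g * y * g⁻¹ := fun y => rfl
  have hfi : Function.Injective f := (MulAut.conj g).injective
  have h : M.KK.map f = M.LL ⊓ Subgroup.centralizer ({M.τ (M.act g M.x0)} : Set G) := by
    rw [hd']
    ext y
    constructor
    · rintro ⟨k, hk, rfl⟩
      rw [hfv]
      have hk2 := M.KK_le_LL hk
      refine ⟨M.LL.mul_mem (M.LL.mul_mem hg hk2) (M.LL.inv_mem hg), Subgroup.mem_centralizer_iff.2 ?_⟩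
      rintro _ rfl
      have c1 : k * M.x = M.x * k := ((M.mem_CC).1 (M.KK_le_CC hk)).eq
      calc g * M.x * g⁻¹ * (g * k * g⁻¹) = g * (M.x * k) * g⁻¹ := by group
        _ = g * (k * M.x) * g⁻¹ := by rw [c1]
        _ = g * k * g⁻¹ * (g * M.x * g⁻¹) := by group
    · rintro ⟨hL, hC⟩
      refine ⟨g⁻¹ * y * g, ?_, by rw [hfv]; group⟩
      rw [← M.stab_eq]
      refine ⟨M.LL.mul_mem (M.LL.mul_mem (M.LL.inv_mem hg) hL) hg, (M.mem_CC).2 ?_⟩
      have c1 := Subgroup.mem_centralizer_iff.1 hC _ rfl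
      have c2 : y * (g * M.x * g⁻¹) = (g * M.x * g⁻¹) * y := c1.symm
      show g⁻¹ * y * g * M.x = M.x * (g⁻¹ * y * g)
      calc g⁻¹ * y * g * M.x = g⁻¹ * (y * (g * M.x * g⁻¹)) * g := by group
        _ = g⁻¹ * ((g * M.x * g⁻¹) * y) * g := by rw [c2]
        _ = M.x * (g⁻¹ * y * g) := by group
  exact ⟨((M.KK.equivMapOfInjective f hfi).trans (MulEquiv.subgroupCongr h)).symm⟩

include M in
/-- **The main result from the model.** -/
theorem main : ∃ L : Subgroup G, Cfsg.IsDSubgroup D L ∧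
    Nonempty (↥(Cfsg.generalizedFittingSubgroup ↥L) ≃* Cfsg.POmega (ZMod 3) (Cfsg.quadFormPlus 4 (ZMod 3))) ∧
    (∃ _ : (Cfsg.generalizedFittingSubgroup ↥L).Normal, Nonempty (↥L ⧸ Cfsg.generalizedFittingSubgroup ↥L ≃* Equiv.Perm (Fin 3))) ∧
    ∀ d ∈ D, d ∈ L → Nonempty (↥(L ⊓ Subgroup.centralizer ({d} : Set G)) ≃* Multiplicative (ZMod 2) × Cfsg.POmega (ZMod 3) (Cfsg.quadFormOdd 3 (ZMod 3))) := by
  have h := M.gfit_eq
  refine ⟨M.LL, ?_, ?_, ?_, ?_⟩
  · apply le_antisymm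
    · rw [Subgroup.closure_le]
      intro d hd
      exact hd.2
    · rw [Subgroup.closure_le]
      rintro _ (⟨u, hu, rfl⟩ | rfl)
      · exact Subgroup.subset_closure ⟨M.τ_mem u, M.K1_le_LL (M.U_mem_K1 hu)⟩
      · exact Subgroup.subset_closure ⟨M.τ_mem _, M.q0_mem_LL⟩
  · rw [h]
    exact M.equiv_W
  · refine ⟨by rw [h]; infer_instance, ?_⟩
    exact ⟨(QuotientGroup.quotientMulEquivOfEq h).trans (QuotientGroup.quotientKerEquivOfSurjective M.xi M.xi_surj)⟩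
  · intro d hd hdL
    obtain ⟨e1⟩ := M.equiv_stab hd hdL
    obtain ⟨e2⟩ := M.equiv_KK
    exact ⟨e1.trans e2⟩

end finite

end Mdl

end Cfsg.Agent.Lib.ThreeT.O83
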