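import Cfsg.Agent.Lib.ThreeT.O83.Inst
import Cfsg.Agent.Lib.ThreeT.F23.Main

/-!
# The model for a group of type M(23)
-/

set_option autoImplicit false
set_option linter.style.haveILetI false
set_option linter.unusedSectionVars false
set_option linter.unusedVariables false
set_option linter.style.longLine false
set_option linter.unnecessarySimpa false
set_option maxRecDepth 100000

namespace Cfsg.Agent.Lib.ThreeT.O83.Final

open Cfsg
open Cfsg.Agent.Lib.TC.Core Cfsg.Agent.Lib.TC.Pres Cfsg.Agent.Lib.TC.Perm Cfsg.Agent.Lib.TC.Main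
  Cfsg.Agent.Lib.TC.Chain Cfsg.Agent.Lib.TC.Chain.PermLev Cfsg.Agent.Lib.TC.G.Fi23
  Cfsg.Agent.Lib.TC.D.Fi23a.Tab Cfsg.Agent.Lib.TC.D.Fi23a.Ok
  Cfsg.Agent.Lib.ThreeT.F22.Sift Cfsg.Agent.Lib.ThreeT.F23.Act Cfsg.Agent.Lib.ThreeT.F23.DPts
  Cfsg.Agent.Lib.ThreeT.O83.Inst Cfsg.Agent.Lib.ThreeT.O83.Lin Cfsg.Agent.Lib.ThreeT.O83.Chk

/-- The points of the first colour. -/
abbrev P1 := {p : Fin pt.n // colF p = 0}

/-- The vector of a point. -/
noncomputable def vecF (p : P1) : V := vecOf (Tab.vt p.1.1)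

theorem lin_spec (p : P1) : Tab.vt p.1.1 < 6561 ∧ (Qn (Tab.vt p.1.1)) % 3 = 1 ∧ Tab.pos (Tab.vt p.1.1) = p.1.1 ∧ Tab.pos (negN (Tab.vt p.1.1)) = p.1.1 ∧
    ∀ c ∈ Tab.L9, applyN c (Tab.vt p.1.1) = Tab.vt (pt.T c p.1.1) ∨ applyN c (Tab.vt p.1.1) = negN (Tab.vt (pt.T c p.1.1)) := by
  have h1 := allN_spec Tab.chkLin p.1.1 (hp31671 p.1)
  have h2 : Nat.beq (Tab.col p.1.1) 0 = true := by
    have : Tab.col p.1.1 = 0 := p.2
    rw [this]
    rfl
  simp only [h2] at h1
  rw [force_eq, Tab.lin1, andB_eq_true, andB_eq_true, andB_eq_true, andB_eq_true] at h1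
  obtain ⟨h3, h4, h5, h6, h7⟩ := h1
  refine ⟨Nat.le_of_ble_eq_true h3, Nat.eq_of_beq_eq_true h4, Nat.eq_of_beq_eq_true h5, Nat.eq_of_beq_eq_true h6, ?_⟩
  intro c hc
  have h8 := lAll_spec h7 c hc
  rw [force_eq, force_eq] at h8
  cases hb : Nat.beq (applyN c (Tab.vt p.1.1)) (Tab.vt (pt.T c p.1.1)) with
  | true => exact Or.inl (Nat.eq_of_beq_eq_true hb)
  | false =>
    rw [hb] at h8
    exact Or.inr (Nat.eq_of_beq_eq_true h8)

theorem code_vecOf {m : Nat} (hm : m < 6561) : code (vecOf m) = m := by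
  have hd : ∀ k, (((Lin.dig m k : Nat) : ZMod 3)).val = Lin.dig m k := fun k => by
    rw [ZMod.val_natCast]
    exact Nat.mod_eq_of_lt (Lin.dig_lt m k)
  have hc : code (vecOf m) = Lin.dig m 0 + 3 * Lin.dig m 1 + 9 * Lin.dig m 2 + 27 * Lin.dig m 3 + 81 * Lin.dig m 4 + 243 * Lin.dig m 5 + 729 * Lin.dig m 6 + 2187 * Lin.dig m 7 := by
    show (((Lin.dig m 0 : Nat) : ZMod 3)).val + 3 * (((Lin.dig m 1 : Nat) : ZMod 3)).val + 9 * (((Lin.dig m 2 : Nat) : ZMod 3)).val + 27 * (((Lin.dig m 3 : Nat) : ZMod 3)).val + 81 * (((Lin.dig m 4 : Nat) : ZMod 3)).val + 243 * (((Lin.dig m 5 : Nat) : ZMod 3)).val + 729 * (((Lin.dig m 6 : Nat) : ZMod 3)).val + 2187 * (((Lin.dig m 7 : Nat) : ZMod 3)).val = _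
    rw [hd, hd, hd, hd, hd, hd, hd, hd]
  rw [hc]
  simp only [Lin.dig]
  norm_num
  omega

theorem negN_lt (m : Nat) : negN m < 6561 := by
  simp only [negN]
  omega

theorem vecOf_inj {m m' : Nat} (hm : m < 6561) (hm' : m' < 6561) (h : vecOf m = vecOf m') : m = m' := by
  rw [← code_vecOf hm, ← code_vecOf hm', h]

theorem vec_h1 (p : P1) : Q (vecF p) = 1 := by
  rw [vecF, Q_vecOf, ← ZMod.natCast_mod, (lin_spec p).2.1]
  rfl

theorem vec_h2 (v : V) (hv : Q v = 1) : ∃ p : P1, v = vecF p ∨ v = -vecF p := by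
  have h1 := vecOf_code v
  set m := code v with hm
  have hlt : m < 6561 := code_lt v
  have hQ : (Qn m) % 3 = 1 := by
    rw [← h1, Q_vecOf] at hv
    have h2 : ((Qn m : Nat) : ZMod 3) = ((1 : Nat) : ZMod 3) := by
      rw [hv]
      rfl
    exact (ZMod.natCast_eq_natCast_iff' _ _ _).1 h2
  have h3 := allN_spec Tab.chkLin2 m hlt
  have hb : Nat.beq (Nat.mod (Qn m) 3) 1 = true := by
    have : Nat.mod (Qn m) 3 = 1 := hQ
    rw [this]
    rfl
  rw [Tab.lin2, hb] at h3
  have h4 : (force (Tab.pos m) fun p => andB (Nat.blt p 31671) (andB (Nat.beq (Tab.col p) 0) (Bool.rec (Nat.beq (Tab.vt p) (negN m)) true (Nat.beq (Tab.vt p) m)))) = true := h3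
  rw [force_eq, andB_eq_true, andB_eq_true] at h4
  obtain ⟨h5, h6, h7⟩ := h4
  let p : P1 := ⟨⟨Tab.pos m, Nat.le_of_ble_eq_true h5⟩, Nat.eq_of_beq_eq_true h6⟩
  refine ⟨p, ?_⟩
  show v = vecOf (Tab.vt (Tab.pos m)) ∨ v = -vecOf (Tab.vt (Tab.pos m))
  cases hb2 : Nat.beq (Tab.vt (Tab.pos m)) m with
  | true =>
    left
    rw [Nat.eq_of_beq_eq_true hb2, h1]
  | false =>
    right
    rw [hb2] at h7
    rw [Nat.eq_of_beq_eq_true h7, neg_vecOf, neg_neg, h1]

theorem vec_h3 (p p' : P1) (h : vecF p = vecF p' ∨ vecF p = -vecF p') : p = p' := by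
  obtain ⟨h1, -, h3, -, -⟩ := lin_spec p
  obtain ⟨h1', -, h3', h4', -⟩ := lin_spec p'
  apply Subtype.ext
  apply Fin.ext
  rcases h with h | h
  · have := vecOf_inj h1 h1' h
    rw [← h3, ← h3', this]
  · have h5 : vecOf (Tab.vt p.1.1) = vecOf (negN (Tab.vt p'.1.1)) := by
      rw [neg_vecOf]
      exact h
    have := vecOf_inj h1 (negN_lt _) h5
    rw [← h3, ← h4', this]

theorem hL9' : ∀ c ∈ Tab.L9, c = 1 ∨ c = 2 ∨ c = 3 ∨ c = 4 ∨ c = 5 ∨ c = 6 ∨ c = 7 ∨ c = 8 ∨ c = 9 := by decide

/-- **The action of the orthogonal group on the points of the first colour.** -/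
theorem exists_A : ∃ A : O8 →* Equiv.Perm P1, ∀ c ∈ Tab.L9, ∃ r : O8, ∀ p : P1, ((A r p : P1) : Fin pt.n) = phi (K.E Rel c) p.1 := by
  obtain ⟨A, hA⟩ := Lin.exists_A vecF vec_h1 vec_h2 vec_h3
  refine ⟨A, fun c hc => ⟨tau c (hL9' c hc), fun p => ?_⟩⟩
  have hc' := hL9 c hc
  have h0 : colF (phi (K.E Rel c) p.1) = 0 := by
    rw [col_U hc, p.2]
    rfl
  let p' : P1 := ⟨phi (K.E Rel c) p.1, h0⟩
  have h1 : app (tau c (hL9' c hc)) (vecF p) = vecF p' ∨ app (tau c (hL9' c hc)) (vecF p) = -vecF p' := by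
    rw [vecF, app_tau]
    have h2 : Tab.vt p'.1.1 = Tab.vt (pt.T c p.1.1) := by
      show Tab.vt (phi (K.E Rel c) p.1).1 = _
      rw [phi_E hc']
    rw [vecF, h2]
    rcases (lin_spec p).2.2.2.2 c hc with h3 | h3
    · left
      rw [h3]
    · right
      rw [h3, neg_vecOf]
  have h4 : A (tau c (hL9' c hc)) p = p' := by
    apply vec_h3
    rcases hA (tau c (hL9' c hc)) p with h5 | h5 <;> rcases h1 with h6 | h6
    · left
      rw [← h5, h6]
    · right
      rw [← h5, h6]
    · right
      rw [h5] at h6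
      rw [← h6, neg_neg]
    · left
      rw [h5] at h6
      exact neg_injective h6
  rw [h4]

variable {G : Type*} [Group G] [Finite G] {D : Set G}

/-- The points of the letters of a list. -/
def UF (l : List Nat) : Set (Fin pt.n) := {p | ∃ c ∈ l, p.1 = ptl c}

theorem colU : ∀ c ∈ Tab.L9, Tab.col (ptl c) = 0 := by decide +kernel
theorem U8fix : ∀ c ∈ Tab.U8, pt.T c 0 = 0 := by decide +kernel
theorem U8ne : ∀ c ∈ Tab.U8, ptl c ≠ 0 := by decide +kernel
theorem j_nfix : pt.T 7 0 ≠ 0 := by decide +kernel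

theorem mem_UF {l : List Nat} (hl : ∀ c ∈ l, c < 10) {p : Fin pt.n} (hp : p ∈ UF l) : ∃ c ∈ l, ∃ hc : c < 10, p = ptlF c hc := by
  obtain ⟨c, hc, h⟩ := hp
  exact ⟨c, hc, hl c hc, Fin.ext h⟩

theorem ptlF_mem {l : List Nat} {c : Nat} (hc : c ∈ l) (hc' : c < 10) : ptlF c hc' ∈ UF l := ⟨c, hc, rfl⟩

/-- **The main result.** -/
theorem hU8L9 : ∀ c ∈ Tab.U8, c ∈ Tab.L9 := by decide

theorem main (hG : IsThreeTranspositionGroup D) (hp : IsPrimitiveUnderConj D) (h23 : IsOfTypeM23 G D) :
    ∃ L : Subgroup G, Cfsg.IsDSubgroup D L ∧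
    Nonempty (↥(Cfsg.generalizedFittingSubgroup ↥L) ≃* Cfsg.POmega (ZMod 3) (Cfsg.quadFormPlus 4 (ZMod 3))) ∧
    (∃ _ : (Cfsg.generalizedFittingSubgroup ↥L).Normal, Nonempty (↥L ⧸ Cfsg.generalizedFittingSubgroup ↥L ≃* Equiv.Perm (Fin 3))) ∧
    ∀ d ∈ D, d ∈ L → Nonempty (↥(L ⊓ Subgroup.centralizer ({d} : Set G)) ≃* Multiplicative (ZMod 2) × Cfsg.POmega (ZMod 3) (Cfsg.quadFormOdd 3 (ZMod 3))) := by
  classical
  obtain ⟨φ, hφ⟩ := Cfsg.Agent.Lib.ThreeT.F23.exists_iso hG hp h23
  have hφ' : ∀ x : G, x ∈ D ↔ ∃ k : Γ, x = φ (k * e0 * k⁻¹) := hφ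
  let τ : Fin pt.n → G := fun p => φ (tt p)
  let act : G →* Equiv.Perm (Fin pt.n) := phi.comp φ.symm.toMonoidHom
  have hact : ∀ g : Γ, act (φ g) = phi g := fun g => by
    show phi (φ.symm (φ g)) = phi g
    rw [MulEquiv.symm_apply_apply]
  have hτE : ∀ c (hc : c < 10), τ (ptlF c hc) = φ (K.E Rel c) := fun c hc => congrArg φ (tt_letter hc)
  have hcomm : ∀ a b : Γ, Commute (φ a) (φ b) ↔ Commute a b := by
    intro a b
    constructor
    · intro h
      apply φ.injective
      rw [map_mul, map_mul]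
      exact h.eq
    · intro h
      exact h.map φ
  -- the letters
  have hmemE : ∀ c, c < 10 → φ (K.E Rel c) ∈ D := by
    intro c hc
    rw [← tt_letter hc]
    obtain ⟨k, hk⟩ := (D0_iff _).1 (tt_mem (ptlF c hc))
    exact (hφ' _).2 ⟨k, by rw [hk]⟩
  have cG : ∀ c c', c < 10 → c' < 10 → pt.T c (ptl c') = ptl c' → Commute (φ (K.E Rel c)) (φ (K.E Rel c')) := fun c c' hc hc' h =>
    (hcomm _ _).2 ((comm_iff hc hc').2 h)
  have nG : ∀ c c', c < 10 → c' < 10 → pt.T c (ptl c') ≠ ptl c' → ¬ Commute (φ (K.E Rel c)) (φ (K.E Rel c')) := fun c c' hc hc' h h2 =>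
    h ((comm_iff hc hc').1 ((hcomm _ _).1 h2))
  have hY : Cfsg.Agent.Lib.ThreeT.F23.Y342 D (φ (K.E Rel 0)) (φ (K.E Rel 1)) (φ (K.E Rel 2)) (φ (K.E Rel 3)) (φ (K.E Rel 4)) (φ (K.E Rel 5)) (φ (K.E Rel 6)) (φ (K.E Rel 7)) (φ (K.E Rel 8)) (φ (K.E Rel 9)) :=
    { ma := hmemE 0 (by decide)
      mb := hmemE 1 (by decide)
      mc := hmemE 2 (by decide)
      md := hmemE 3 (by decide)
      me := hmemE 4 (by decide)
      mf := hmemE 5 (by decide)
      mg := hmemE 6 (by decide)
      mj := hmemE 7 (by decide)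
      mh := hmemE 8 (by decide)
      mi := hmemE 9 (by decide)
      ab := nG 0 1 (by decide) (by decide) (by decide +kernel)
      bc := nG 1 2 (by decide) (by decide) (by decide +kernel)
      cd := nG 2 3 (by decide) (by decide) (by decide +kernel)
      de := nG 3 4 (by decide) (by decide) (by decide +kernel)
      dh := nG 3 8 (by decide) (by decide) (by decide +kernel)
      ef := nG 4 5 (by decide) (by decide) (by decide +kernel)
      fg := nG 5 6 (by decide) (by decide) (by decide +kernel)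
      gj := nG 6 7 (by decide) (by decide) (by decide +kernel)
      hi := nG 8 9 (by decide) (by decide) (by decide +kernel)
      ac := cG 0 2 (by decide) (by decide) (by decide +kernel)
      ad := cG 0 3 (by decide) (by decide) (by decide +kernel)
      ae := cG 0 4 (by decide) (by decide) (by decide +kernel)
      af := cG 0 5 (by decide) (by decide) (by decide +kernel)
      ag := cG 0 6 (by decide) (by decide) (by decide +kernel)
      aj := cG 0 7 (by decide) (by decide) (by decide +kernel)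
      ah := cG 0 8 (by decide) (by decide) (by decide +kernel)
      ai := cG 0 9 (by decide) (by decide) (by decide +kernel)
      bd := cG 1 3 (by decide) (by decide) (by decide +kernel)
      be := cG 1 4 (by decide) (by decide) (by decide +kernel)
      bf := cG 1 5 (by decide) (by decide) (by decide +kernel)
      bg := cG 1 6 (by decide) (by decide) (by decide +kernel)
      bj := cG 1 7 (by decide) (by decide) (by decide +kernel)
      bh := cG 1 8 (by decide) (by decide) (by decide +kernel)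
      bi := cG 1 9 (by decide) (by decide) (by decide +kernel)
      ce := cG 2 4 (by decide) (by decide) (by decide +kernel)
      cf := cG 2 5 (by decide) (by decide) (by decide +kernel)
      cg := cG 2 6 (by decide) (by decide) (by decide +kernel)
      cj := cG 2 7 (by decide) (by decide) (by decide +kernel)
      ch := cG 2 8 (by decide) (by decide) (by decide +kernel)
      ci := cG 2 9 (by decide) (by decide) (by decide +kernel)
      df := cG 3 5 (by decide) (by decide) (by decide +kernel)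
      dg := cG 3 6 (by decide) (by decide) (by decide +kernel)
      dj := cG 3 7 (by decide) (by decide) (by decide +kernel)
      di := cG 3 9 (by decide) (by decide) (by decide +kernel)
      eg := cG 4 6 (by decide) (by decide) (by decide +kernel)
      ej := cG 4 7 (by decide) (by decide) (by decide +kernel)
      eh := cG 4 8 (by decide) (by decide) (by decide +kernel)
      ei := cG 4 9 (by decide) (by decide) (by decide +kernel)
      fj := cG 5 7 (by decide) (by decide) (by decide +kernel)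
      fh := cG 5 8 (by decide) (by decide) (by decide +kernel)
      fi := cG 5 9 (by decide) (by decide) (by decide +kernel)
      gh := cG 6 8 (by decide) (by decide) (by decide +kernel)
      gi := cG 6 9 (by decide) (by decide) (by decide +kernel)
      jh := cG 7 8 (by decide) (by decide) (by decide +kernel)
      ji := cG 7 9 (by decide) (by decide) (by decide +kernel) }
  have hx0 : τ 0 = φ a0 := congrArg φ tt_zero
  have xC : ∀ c, c < 10 → pt.T c 0 = 0 → Commute (φ a0) (φ (K.E Rel c)) := fun c hc h =>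
    (hcomm _ _).2 ((x_comm_iff hc).2 h)
  have xN : ∀ c, c < 10 → pt.T c 0 ≠ 0 → ¬ Commute (φ a0) (φ (K.E Rel c)) := fun c hc h h2 =>
    h ((x_comm_iff hc).1 ((hcomm _ _).1 h2))
  have hτmem : ∀ q, φ (tt q) ∈ D := fun q => by
    obtain ⟨k, hk⟩ := (D0_iff _).1 (tt_mem q)
    exact (hφ' _).2 ⟨k, by rw [hk]⟩
  have hxD : φ a0 ∈ D := by
    rw [← tt_zero]
    exact hτmem 0
  have hKK : Subgroup.closure (τ '' UF Tab.U8) = Subgroup.closure ({φ (K.E Rel 1), φ (K.E Rel 2), φ (K.E Rel 3), φ (K.E Rel 4), φ (K.E Rel 5), φ (K.E Rel 6), φ (K.E Rel 8), φ (K.E Rel 9)} : Set G) := by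
    congr 1
    ext y
    constructor
    · rintro ⟨p, hp, rfl⟩
      obtain ⟨c, hc, hc', rfl⟩ := mem_UF hU8 hp
      rw [hτE]
      simp only [Tab.U8, List.mem_cons, List.not_mem_nil, or_false] at hc
      rcases hc with rfl | rfl | rfl | rfl | rfl | rfl | rfl | rfl <;> simp
    · intro hy
      have h1 : ∃ c ∈ Tab.U8, ∃ hc' : c < 10, y = φ (K.E Rel c) := by
        simp only [Set.mem_insert_iff, Set.mem_singleton_iff] at hy
        rcases hy with rfl | rfl | rfl | rfl | rfl | rfl | rfl | rfl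
        · exact ⟨1, by decide, by decide, rfl⟩
        · exact ⟨2, by decide, by decide, rfl⟩
        · exact ⟨3, by decide, by decide, rfl⟩
        · exact ⟨4, by decide, by decide, rfl⟩
        · exact ⟨5, by decide, by decide, rfl⟩
        · exact ⟨6, by decide, by decide, rfl⟩
        · exact ⟨8, by decide, by decide, rfl⟩
        · exact ⟨9, by decide, by decide, rfl⟩
      obtain ⟨c, hc, hc', rfl⟩ := h1
      exact ⟨ptlF c hc', ptlF_mem hc hc', hτE c hc'⟩
  obtain ⟨⟨θ, hθs, hθk⟩, hnorm⟩ := Lvl.exists_theta hG hp h23 hY hxD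
    (xC 0 (by decide) (by decide +kernel)) (xC 1 (by decide) (by decide +kernel)) (xC 2 (by decide) (by decide +kernel))
    (xC 3 (by decide) (by decide +kernel)) (xC 4 (by decide) (by decide +kernel)) (xC 5 (by decide) (by decide +kernel))
    (xC 6 (by decide) (by decide +kernel)) (xC 8 (by decide) (by decide +kernel)) (xC 9 (by decide) (by decide +kernel))
    (xN 7 (by decide) (by decide +kernel)) _ hKK
  obtain ⟨A, hA⟩ := exists_A
  -- the forests
  have hSU : ∀ c ∈ Tab.L9, K.E Rel c ∈ (Subgroup.closure (τ '' UF Tab.L9)).comap φ.toMonoidHom := by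
    intro c hc
    rw [Subgroup.mem_comap]
    show φ (K.E Rel c) ∈ Subgroup.closure (τ '' UF Tab.L9)
    rw [← hτE c (hL9 c hc)]
    exact Subgroup.subset_closure ⟨_, ptlF_mem hc _, rfl⟩
  have hSU' : ∀ c ∈ Tab.U8, K.E Rel c ∈ (Subgroup.closure (τ '' UF Tab.U8)).comap φ.toMonoidHom := by
    intro c hc
    rw [Subgroup.mem_comap]
    show φ (K.E Rel c) ∈ Subgroup.closure (τ '' UF Tab.U8)
    rw [← hτE c (hU8 c hc)]
    exact Subgroup.subset_closure ⟨_, ptlF_mem hc _, rfl⟩
  have hconn : ∀ p : Fin pt.n, ∃ g ∈ Subgroup.closure (τ '' UF Tab.L9), act g (rootP (colF p)) = p := by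
    intro p
    obtain ⟨g, hg, e⟩ := forest _ hSU _ p rfl
    exact ⟨φ g, hg, by rw [hact, e]⟩
  let M : O83.Mdl G D (Fin pt.n) :=
    { act := act
      τ := τ
      τ_mem := hτmem
      τ_surj := by
        intro d hd
        obtain ⟨k, rfl⟩ := (hφ' d).1 hd
        obtain ⟨q, hq⟩ := tt_surj ((D0_iff _).2 ⟨k, rfl⟩)
        exact ⟨q, congrArg φ hq⟩
      τ_inj := φ.injective.comp tt_inj
      τ_sq := fun q => by
        show φ (tt q) * φ (tt q) = 1
        rw [← map_mul, tt_sq, map_one]
      τ_conj := fun g q => by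
        show g * φ (tt q) * g⁻¹ = φ (tt (phi (φ.symm g) q))
        rw [← tt_conj, map_mul, map_mul, map_inv, MulEquiv.apply_symm_apply]
      τ_fix := fun g q => by
        show phi (φ.symm g) q = q ↔ Commute g (φ (tt q))
        rw [tt_fix, ← hcomm, MulEquiv.apply_symm_apply]
      gen := hG.2.2
      col := colF
      col_lt := colF_lt
      U := UF Tab.L9
      U' := UF Tab.U8
      x0 := 0
      q0 := q0F
      j0 := ptlF 7 (by decide)
      b0 := ptlF 1 (by decide)
      r0 := r0F
      trans := fun p => by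
        obtain ⟨g, hg⟩ := phi_trans p
        exact ⟨φ g, by rw [hact, hg]⟩
      col_x0 := by
        show Tab.col 0 = 0
        decide +kernel
      col_q0 := by
        show Tab.col 26337 = 1
        decide +kernel
      col_r0 := by
        show Tab.col 11589 = 3
        decide +kernel
      U'_U := by
        rintro p ⟨c, hc, h⟩
        exact ⟨c, hU8L9 c hc, h⟩
      j0_U := ptlF_mem (by decide) _
      b0_U' := ptlF_mem (by decide) _
      U_col := by
        rintro p ⟨c, hc, h⟩
        show Tab.col p.1 = 0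
        rw [h]
        exact colU c hc
      U_act := by
        intro u hu p
        obtain ⟨c, hc, hc', rfl⟩ := mem_UF hL9 hu
        show colF (act (τ _) p) = _
        rw [hτE, hact]
        exact col_U hc p
      s_act := fun p => by
        show colF (act (φ (tt q0F)) p) = _
        rw [hact]
        exact col_s p
      conn0 := fun p hp => by
        obtain ⟨g, hg, e⟩ := hconn p
        rw [hp] at e
        exact ⟨g, hg, e⟩
      conn1 := fun p hp => by
        obtain ⟨g, hg, e⟩ := hconn p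
        refine ⟨g, hg, ?_⟩
        have h1 : rootP (colF p) = q0F := by
          rcases hp with h | h <;> · rw [h]; rfl
        rw [h1] at e
        exact e
      conn3 := fun p hp => by
        obtain ⟨g, hg, e⟩ := hconn p
        refine ⟨g, hg, ?_⟩
        have h1 : rootP (colF p) = r0F := by
          rw [hp]
          rfl
        rw [h1] at e
        exact e
      card0 := card0
      cardY := cardY
      U'_fix := by
        intro u hu
        obtain ⟨c, hc, hc', rfl⟩ := mem_UF hU8 hu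
        show act (τ _) 0 = 0
        rw [hτE, hact]
        apply Fin.ext
        rw [phi_E hc']
        exact U8fix c hc
      U'_ne := by
        rintro ⟨c, hc, h⟩
        exact U8ne c hc h.symm
      j0_nfix := by
        show act (τ _) 0 ≠ 0
        rw [hτE, hact]
        intro h
        have h1 := phi_E (c := 7) (by decide) 0
        rw [h] at h1
        exact j_nfix h1.symm
      fixK := by
        intro p hp h0
        obtain ⟨c, hc, h1, h2⟩ := fixK_tab p hp h0
        refine ⟨ptlF c (hU8 c hc), ptlF_mem hc _, ?_, ?_⟩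
        · show act (τ _) p ≠ p
          rw [hτE, hact]
          exact h1
        · show act (τ _) p ≠ act (τ 0) p
          rw [hτE, hact, hx0, hact]
          exact h2
      h351 := by
        intro p hp h0 hx
        have h1 : phi (tt p) 0 = 0 := by
          have : act (φ (tt p)) 0 = 0 := hx
          rwa [hact] at this
        have h2 := (tt_fix _ _).1 h1
        have h3 : phi (tt 0) p = p := (tt_fix _ _).2 h2.symm
        rw [tt_zero] at h3
        exact mem_351 _ hSU' p hp h0 h3
      θ := θ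
      θ_surj := hθs
      θ_ker := fun g hg => by
        rw [hx0]
        exact hθk g hg
      hnorm := by
        intro g hg hk
        rw [hx0] at hg ⊢
        exact hnorm g hg hk
      A := A
      hA := by
        intro u hu
        obtain ⟨c, hc, hc', rfl⟩ := mem_UF hL9 hu
        obtain ⟨r, hr⟩ := hA c hc
        refine ⟨r, fun p => ?_⟩
        show _ = act (τ _) p.1
        rw [hτE, hact]
        exact hr p }
  exact M.main

end Cfsg.Agent.Lib.ThreeT.O83.Final
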