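import Cfsg.Agent.Lib.ThreeT.O83.Abs
import Cfsg.Agent.Lib.ThreeT.O83.Fi22N
import Cfsg.Agent.Lib.PermComp.OutP.M23T.Main

/-!
# The level of a member of `D`: the subgroup of eight letters
-/

set_option autoImplicit false
set_option linter.unusedSectionVars false
set_option linter.unusedVariables false
set_option linter.style.longLine false
set_option linter.unusedSimpArgs false
set_option linter.unnecessarySimpa false
set_option linter.style.haveILetI false
set_option maxRecDepth 100000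

namespace Cfsg.Agent.Lib.ThreeT.O83.Lvl

open Cfsg Cfsg.Agent.Lib.ThreeT.Basic Cfsg.Agent.Lib.ThreeT.Class Cfsg.Agent.Lib.ThreeT.Relations
open Cfsg.Agent.Lib.ThreeT.Rank3 Cfsg.Agent.Lib.ThreeT.Descent
open Cfsg.Agent.Lib.ThreeT.M23 Cfsg.Agent.Lib.ThreeT.M22 Cfsg.Agent.Lib.ThreeT.M23d
open Cfsg.Agent.Lib.ThreeT.F23 Cfsg.Agent.Lib.ThreeT.F22

variable {G : Type*} [Group G] [Finite G] {D : Set G}

theorem range_pi {x : G} {S : Set G} (hS : S ⊆ Subgroup.closure (Da D x)) (hle : Subgroup.closure S ≤ Subgroup.closure (Da D x)) :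
    ((QuotientGroup.mk' (Subgroup.center (Gd D x))).comp (Subgroup.inclusion hle)).range = Subgroup.closure (phi D x '' S) := by
  let π : Subgroup.closure S →* Gd D x ⧸ Subgroup.center (Gd D x) :=
    (QuotientGroup.mk' (Subgroup.center (Gd D x))).comp (Subgroup.inclusion hle)
  have hπ : ∀ u : Subgroup.closure S, π u = phi D x u := fun u => (phi_eq_of_coe (x := Subgroup.inclusion hle u) rfl).symm
  apply le_antisymm
  · rintro _ ⟨⟨u, hu⟩, rfl⟩
    show π ⟨u, hu⟩ ∈ _
    rw [hπ]
    show phi D x u ∈ _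
    induction hu using Subgroup.closure_induction with
    | mem u hu => exact Subgroup.subset_closure ⟨u, hu, rfl⟩
    | one => rw [F23.phi_one']; exact Subgroup.one_mem _
    | mul u v hu hv h1 h2 =>
      rw [phi_mul (hle hu) (hle hv)]
      exact Subgroup.mul_mem _ h1 h2
    | inv u hu h1 =>
      have e : phi D x u⁻¹ = (phi D x u)⁻¹ := by
        apply eq_inv_of_mul_eq_one_left
        rw [← phi_mul (Subgroup.inv_mem _ (hle hu)) (hle hu), inv_mul_cancel, F23.phi_one']
      rw [e]
      exact Subgroup.inv_mem _ h1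
  · rw [Subgroup.closure_le]
    rintro _ ⟨u, hu, rfl⟩
    exact ⟨⟨u, Subgroup.subset_closure hu⟩, hπ _⟩

/-- **The subgroup of eight letters.** -/
theorem exists_theta (hG : IsThreeTranspositionGroup D) (hp : IsPrimitiveUnderConj D) (h23 : IsOfTypeM23 G D)
    {a b c d e f g j h i x : G} (H : Y342 D a b c d e f g j h i) (hx : x ∈ D) (xa : Commute x a) (xb : Commute x b)
    (xc : Commute x c) (xd : Commute x d) (xe : Commute x e) (xf : Commute x f) (xg : Commute x g) (xh : Commute x h)
    (xi : Commute x i) (xj : ¬ Commute x j) (KK : Subgroup G) (hKK : KK = Subgroup.closure ({b, c, d, e, f, g, h, i} : Set G)) :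
    (∃ θ : ↥KK →* POm7, Function.Surjective θ ∧ ∀ u, θ u = 1 → (u : G) = 1 ∨ (u : G) = x) ∧
      ∀ y, Commute y x → (∀ k ∈ KK, y * k * y⁻¹ ∈ KK) → ∃ k ∈ KK, y = k ∨ y = k * x := by
  classical
  subst hKK
  obtain ⟨F, i1, i2, i3, lv⟩ := exists_levels hG hp h23
  have Lx := lv x hx
  have hD := hG.1
  have ma : a ∈ Da D x := ⟨H.ma, by rintro rfl; exact xj H.aj, xa⟩
  have mb : b ∈ Da D x := ⟨H.mb, by rintro rfl; exact xj H.bj, xb⟩
  have mc : c ∈ Da D x := ⟨H.mc, by rintro rfl; exact xj H.cj, xc⟩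
  have md : d ∈ Da D x := ⟨H.md, by rintro rfl; exact xj H.dj, xd⟩
  have me : e ∈ Da D x := ⟨H.me, by rintro rfl; exact xj H.ej, xe⟩
  have mf : f ∈ Da D x := ⟨H.mf, by rintro rfl; exact xj H.fj, xf⟩
  have mg : g ∈ Da D x := ⟨H.mg, by rintro rfl; exact H.fg xf.symm, xg⟩
  have mh : h ∈ Da D x := ⟨H.mh, by rintro rfl; exact xj H.jh.symm, xh⟩
  have mi : i ∈ Da D x := ⟨H.mi, by rintro rfl; exact xj H.ji.symm, xi⟩
  have H22 := H.toY332
  have Y := Y332_phi hD H22 ma mb mc md me mf mg mh mi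
  obtain ⟨φ, hφ⟩ := exists_iso_of_tuple (F := F) Lx.P.hG₂ Lx.P.hp₂ Lx.h22 Lx.P.data₂ Y
  obtain ⟨eO⟩ := omega_of_tuple φ hφ
  set S : Set G := {b, c, d, e, f, g, h, i} with hS
  have hSD : S ⊆ Subgroup.closure (Da D x) := by
    rintro y (rfl | rfl | rfl | rfl | rfl | rfl | rfl | rfl)
    · exact Subgroup.subset_closure mb
    · exact Subgroup.subset_closure mc
    · exact Subgroup.subset_closure md
    · exact Subgroup.subset_closure me
    · exact Subgroup.subset_closure mf
    · exact Subgroup.subset_closure mg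
    · exact Subgroup.subset_closure mh
    · exact Subgroup.subset_closure mi
  have hle : Subgroup.closure S ≤ Subgroup.closure (Da D x) := (Subgroup.closure_le _).2 hSD
  let π : Subgroup.closure S →* Gd D x ⧸ Subgroup.center (Gd D x) :=
    (QuotientGroup.mk' (Subgroup.center (Gd D x))).comp (Subgroup.inclusion hle)
  have hπ : ∀ u : Subgroup.closure S, π u = phi D x u := fun u => (phi_eq_of_coe (x := Subgroup.inclusion hle u) rfl).symm
  have himg : phi D x '' S = {phi D x b, phi D x c, phi D x d, phi D x e, phi D x f, phi D x g, phi D x h, phi D x i} := by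
    simp only [hS, Set.image_insert_eq, Set.image_singleton]
  have hrange : π.range = Subgroup.closure ({phi D x b, phi D x c, phi D x d, phi D x e, phi D x f, phi D x g, phi D x h, phi D x i} : Set _) := by
    rw [← himg]
    exact range_pi hSD hle
  -- the isomorphism of the top group
  have e0 : (Cfsg.Agent.Lib.ThreeT.O83.Fi22N.H0).map φ.toMonoidHom =
      Subgroup.closure ({phi D x b, phi D x c, phi D x d, phi D x e, phi D x f, phi D x g, phi D x h, phi D x i} : Set _) := by
    have hH := Cfsg.Agent.S1686.hH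
    rw [Cfsg.Agent.Lib.ThreeT.O83.Fi22N.H0, ← hH, Subgroup.map_map, MonoidHom.map_closure]
    congr 1
    simp only [Set.image_insert_eq, Set.image_singleton]
    have e1 : ∀ t, (φ.toMonoidHom.comp (PresentedGroup.mk _)) (FreeGroup.of t) = CoxF22.tup (phi D x a) (phi D x b) (phi D x c) (phi D x d) (phi D x e) (phi D x f) (phi D x g) (phi D x h) (phi D x i) t := fun t => hφ t
    rw [e1, e1, e1, e1, e1, e1, e1, e1]
    rfl
  constructor
  · have hmem : ∀ u, π u ∈ Subgroup.closure ({phi D x b, phi D x c, phi D x d, phi D x e, phi D x f, phi D x g, phi D x h, phi D x i} : Set _) := by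
      intro u
      rw [← hrange]
      exact ⟨u, rfl⟩
    let π' := π.codRestrict _ hmem
    refine ⟨eO.toMonoidHom.comp π', ?_, ?_⟩
    · intro y
      obtain ⟨w, rfl⟩ := eO.surjective y
      have hw : (w : Gd D x ⧸ Subgroup.center (Gd D x)) ∈ π.range := by
        rw [hrange]
        exact w.2
      obtain ⟨u, hu⟩ := hw
      refine ⟨u, ?_⟩
      show eO (π' u) = eO w
      congr 1
      exact Subtype.ext hu
    · intro u hu
      have h1 : π' u = 1 := eO.injective (by rw [map_one]; exact hu)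
      have h2 : π u = 1 := congrArg Subtype.val h1
      rw [hπ] at h2
      exact closure_val Lx (hle u.2) h2
  · intro y hyc hnorm
    have hyC : y ∈ Subgroup.closure (Da D x) := by
      rw [Cfsg.Agent.Lib.PermComp.OutP.M23T.closure_eq_cent hG hp h23 x hx, Subgroup.mem_centralizer_iff]
      rintro _ rfl
      exact hyc.eq.symm
    let yh : Gd D x := ⟨y, hyC⟩
    let yb : Gd D x ⧸ Subgroup.center (Gd D x) := QuotientGroup.mk yh
    have hyg : φ.symm yb ∈ Cfsg.Agent.Lib.ThreeT.O83.Fi22N.H0 := by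
      apply Cfsg.Agent.Lib.ThreeT.O83.Fi22N.norm_H0
      intro h0 hh0
      have h1 : φ h0 ∈ π.range := by
        rw [hrange, ← e0]
        exact ⟨h0, hh0, rfl⟩
      obtain ⟨k, hk⟩ := h1
      have h2 := hnorm k.1 k.2
      have h3 : φ (φ.symm yb * h0 * (φ.symm yb)⁻¹) = π ⟨y * k.1 * y⁻¹, h2⟩ := by
        rw [map_mul, map_mul, map_inv, MulEquiv.apply_symm_apply, ← hk]
        rfl
      have h4 : φ (φ.symm yb * h0 * (φ.symm yb)⁻¹) ∈ (Cfsg.Agent.Lib.ThreeT.O83.Fi22N.H0).map φ.toMonoidHom := by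
        rw [h3, e0, ← hrange]
        exact ⟨_, rfl⟩
      obtain ⟨h5, h6, h7⟩ := h4
      have h8 : h5 = φ.symm yb * h0 * (φ.symm yb)⁻¹ := φ.injective h7
      rw [← h8]
      exact h6
    have h1 : yb ∈ π.range := by
      rw [hrange, ← e0]
      exact ⟨_, hyg, MulEquiv.apply_symm_apply φ yb⟩
    obtain ⟨k, hk⟩ := h1
    have h2 : k.1⁻¹ * y ∈ Subgroup.closure (Da D x) := Subgroup.mul_mem _ (Subgroup.inv_mem _ (hle k.2)) hyC
    have h3 : phi D x (k.1⁻¹ * y) = 1 := by
      have h5 : phi D x (k.1⁻¹ * y) = QuotientGroup.mk ((Subgroup.inclusion hle k)⁻¹ * yh) := phi_eq_of_coe rfl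
      rw [h5, QuotientGroup.mk_mul, QuotientGroup.mk_inv]
      show (π k)⁻¹ * yb = 1
      rw [hk, inv_mul_cancel]
    refine ⟨k.1, k.2, ?_⟩
    rcases closure_val Lx h2 h3 with h4 | h4
    · left
      exact (inv_mul_eq_one.1 h4).symm
    · right
      rw [← h4]
      group

end Cfsg.Agent.Lib.ThreeT.O83.Lvl
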