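import Cfsg.Agent.Lib.ThreeT.F23.DPts
import Cfsg.Agent.Lib.ThreeT.O83.Tab
import Cfsg.Agent.Lib.ThreeT.O83.Lvl

/-!
# The points of `Fi₂₃`, the letters, and the model
-/

set_option autoImplicit false
set_option linter.style.haveILetI false
set_option linter.unusedSectionVars false
set_option linter.unusedVariables false
set_option linter.style.longLine false
set_option linter.unnecessarySimpa false
set_option maxRecDepth 100000

namespace Cfsg.Agent.Lib.ThreeT.O83.Inst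

open Cfsg
open Cfsg.Agent.Lib.TC.Core Cfsg.Agent.Lib.TC.Pres Cfsg.Agent.Lib.TC.Perm Cfsg.Agent.Lib.TC.Main
  Cfsg.Agent.Lib.TC.Chain Cfsg.Agent.Lib.TC.Chain.PermLev Cfsg.Agent.Lib.TC.G.Fi23
  Cfsg.Agent.Lib.TC.D.Fi23a.Tab Cfsg.Agent.Lib.TC.D.Fi23a.Ok
  Cfsg.Agent.Lib.ThreeT.F22.Sift Cfsg.Agent.Lib.ThreeT.F23.Act Cfsg.Agent.Lib.ThreeT.F23.DPts
  Cfsg.Agent.Lib.TC.SubPres Cfsg.Agent.Lib.TC.Iso Cfsg.Agent.Lib.TC.Tra

theorem hL9 : ∀ c ∈ Tab.L9, c < 10 := by decide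
theorem hU8 : ∀ c ∈ Tab.U8, c < 10 := by decide

/-- The member of a point. -/
noncomputable def tt (p : Fin pt.n) : Γ := (phi_trans p).choose * a0 * ((phi_trans p).choose)⁻¹

theorem tt_eq {k : Γ} {p : Fin pt.n} (h : phi k 0 = p) : tt p = k * a0 * k⁻¹ :=
  conj_eq_of_phi (by rw [(phi_trans p).choose_spec, h])

theorem tt_conj (g : Γ) (p : Fin pt.n) : g * tt p * g⁻¹ = tt (phi g p) := by
  obtain ⟨k, rfl⟩ := phi_trans p
  rw [tt_eq rfl, tt_eq (k := g * k) (by simp [map_mul])]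
  group

theorem tt_fix (g : Γ) (p : Fin pt.n) : phi g p = p ↔ Commute g (tt p) := by
  obtain ⟨k, rfl⟩ := phi_trans p
  rw [tt_eq rfl]
  exact (comm_conj_iff g k).symm

theorem a0_sq : a0 * a0 = 1 := Cfsg.Agent.Lib.TC.D.Fi23Z.z_sq

theorem tt_sq (p : Fin pt.n) : tt p * tt p = 1 := by
  obtain ⟨k, rfl⟩ := phi_trans p
  rw [tt_eq rfl]
  calc k * a0 * k⁻¹ * (k * a0 * k⁻¹) = k * (a0 * a0) * k⁻¹ := by group
    _ = 1 := by rw [a0_sq]; group

theorem tt_inj : Function.Injective tt := by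
  intro p q h
  obtain ⟨k, rfl⟩ := phi_trans p
  obtain ⟨k', rfl⟩ := phi_trans q
  rw [tt_eq rfl, tt_eq rfl] at h
  have h1 : (k'⁻¹ * k) * a0 = a0 * (k'⁻¹ * k) := by
    calc (k'⁻¹ * k) * a0 = k'⁻¹ * (k * a0 * k⁻¹) * k := by group
      _ = k'⁻¹ * (k' * a0 * k'⁻¹) * k := by rw [h]
      _ = a0 * (k'⁻¹ * k) := by group
  have h2 := (fix_iff _).2 h1
  rw [map_mul, map_inv, Equiv.Perm.mul_apply] at h2
  have h3 := congrArg (phi k') h2
  simpa using h3

theorem tt_mem (p : Fin pt.n) : tt p ∈ D0 := by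
  obtain ⟨k, rfl⟩ := phi_trans p
  exact ⟨k, tt_eq rfl⟩

theorem tt_surj {u : Γ} (hu : u ∈ D0) : ∃ p, tt p = u := by
  obtain ⟨k, rfl⟩ := hu
  exact ⟨phi k 0, tt_eq rfl⟩

theorem tt_zero : tt 0 = a0 := by
  rw [tt_eq (k := 1) (by simp)]
  simp

theorem pt_n : pt.n = 31671 := rfl

/-- The number of the point of a letter. -/
def ptl (c : Nat) : Nat := [11589, 8004, 8003, 8000, 8001, 8002, 8005, 8006, 7999, 8007].getD c 0

/-- The words of the points of the letters. -/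
def lw (c : Nat) : List Nat :=
  ([[7,6,5,4,3,2,1,0,8,3,2,4,3,5,4,6,5,7,6,8,3,2,4,3,5,4,8,3,2,1],
   [7,6,5,4,3,2,1,8,3,2,4,3,5,4,6,5,7,6,8,3,2,4,3,5,4,8,3,2],
   [7,6,5,4,3,2,1,8,3,2,4,3,5,4,6,5,7,6,8,3,2,1,4,3,5,4,8,3],
   [7,6,5,4,3,2,1,8,3,2,4,3,5,4,6,5,7,6,8,3,2,1,4,3,2,5,4,8],
   [7,6,5,4,3,2,1,8,3,2,4,3,5,4,6,5,7,6,8,3,2,1,4,3,2,5,8,3],
   [7,6,5,4,3,2,1,8,3,2,4,3,5,4,6,5,7,6,8,3,2,1,4,3,2,8,3,4],
   [7,6,5,4,3,2,1,8,3,2,4,3,5,4,6,5,7,8,3,2,1,4,3,2,8,3,4,5],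
   [7,6,5,4,3,2,1,8,3,2,4,3,5,4,6,5,8,3,2,1,4,3,2,8,3,4,5,6],
   [7,6,5,4,3,2,1,8,3,2,4,3,5,4,6,5,7,6,8,3,2,1,4,3,2,5,4,3],
   [7,6,5,4,3,2,8,3,4,5,6,7,9,8,3,2,4,3,5,4,6,5,8,3,2,4,3,8]] : List (List Nat)).getD c []

theorem ptl_lt : ∀ c, c < 10 → ptl c < pt.n := by decide +kernel

/-- The point of a letter. -/
def ptlF (c : Nat) (hc : c < 10) : Fin pt.n := ⟨ptl c, ptl_lt c hc⟩

theorem hlw : ∀ c, c < 10 → (∀ z ∈ lw c, z < pt.k) ∧ pt.val (lw c) 0 = ptl c := by decide +kernel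

theorem lt_K : ∀ c, c < 10 → (∀ x ∈ tw (lw c) ++ [c], x < K.k) ∧
    fixAll pt (allBase [0] Cfsg.Agent.Lib.TC.D.Fi23Chain.Lev.levels) (tw (lw c) ++ [c]) = true := by
  decide +kernel

theorem E_sq {c : Nat} (hc : c < 10) : K.E Rel c * K.E Rel c = 1 := Cfsg.Agent.Lib.TC.D.Fi23Z.hE c hc

theorem E_eq {c : Nat} (hc : c < 10) : K.E Rel c = wv (tw (lw c)) := by
  obtain ⟨h1, h2⟩ := lt_K c hc
  have h3 : wv (tw (lw c) ++ [c]) = 1 := Cfsg.Agent.Lib.TC.D.Fi23Z.one_of_fix _ h1 h2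
  rw [wv_append] at h3
  have h4 : wv [c] = K.E Rel c := by simp [wv]
  rw [h4] at h3
  have h5 : (K.E Rel c)⁻¹ = K.E Rel c := inv_eq_of_mul_eq_one_left (E_sq hc)
  rw [← h5]
  exact inv_eq_of_mul_eq_one_right h3

theorem tt_letter {c : Nat} (hc : c < 10) : tt (ptlF c hc) = K.E Rel c := by
  obtain ⟨h1, h2⟩ := hlw c hc
  rw [E_eq hc, wv_tw h1]
  apply tt_eq
  apply Fin.ext
  rw [phi_val h1]
  exact h2

theorem phi_E {c : Nat} (hc : c < 10) (p : Fin pt.n) : (phi (K.E Rel c) p).1 = pt.T c p.1 := by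
  rw [phi_spec c hc]
  exact ok.hG.EP_apply (c := c) hc p

theorem comm_iff {c c' : Nat} (hc : c < 10) (hc' : c' < 10) : Commute (K.E Rel c) (K.E Rel c') ↔ pt.T c (ptl c') = ptl c' := by
  rw [← tt_letter hc', ← tt_fix]
  constructor
  · intro h
    have h1 := phi_E hc (ptlF c' hc')
    rw [h] at h1
    exact h1.symm
  · intro h
    apply Fin.ext
    rw [phi_E hc]
    exact h

theorem x_comm_iff {c : Nat} (hc : c < 10) : Commute a0 (K.E Rel c) ↔ pt.T c 0 = 0 := by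
  rw [Commute.symm_iff, ← tt_zero, ← tt_fix]
  constructor
  · intro h
    have h1 := phi_E hc 0
    rw [h] at h1
    exact h1.symm
  · intro h
    apply Fin.ext
    rw [phi_E hc]
    exact h

/-- The point `q0`. -/
def q0F : Fin pt.n := ⟨26337, by decide +kernel⟩
/-- The point `r0`. -/
def r0F : Fin pt.n := ⟨11589, by decide +kernel⟩

theorem sw_lt : ∀ z ∈ Tab.sw0, z < pt.k := by decide +kernel
theorem sw_lt' : ∀ z ∈ Tab.sw, z < pt.k := by decide +kernel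

theorem sw_val : pt.val Tab.sw0 11589 = 26337 := by decide +kernel

theorem tt_q0 : tt q0F = wv Tab.sw := by
  have h1 : phi (wv Tab.sw0) (ptlF 0 (by decide)) = q0F := by
    apply Fin.ext
    rw [phi_val sw_lt]
    exact sw_val
  rw [← h1, ← tt_conj, tt_letter (by decide)]
  have h2 : wv [0] = K.E Rel 0 := by simp [wv]
  have h3 : Tab.sw = Tab.sw0.reverse ++ ([0] ++ Tab.sw0) := by decide
  rw [h3, wv_append, wv_append, h2, wv_reverse sw_lt, mul_assoc]

theorem act_q0 (p : Fin pt.n) : (phi (tt q0F) p).1 = pt.val Tab.sw p.1 := by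
  rw [tt_q0]
  exact phi_val sw_lt' p

theorem act_x (p : Fin pt.n) : (phi a0 p).1 = pt.val Tab.zw p.1 := by
  have h : wv Tab.zw = a0 := rfl
  rw [← h]
  exact phi_val (by decide +kernel) p

/-! ### The tables, for points -/

/-- The colour of a point. -/
noncomputable def colF (p : Fin pt.n) : ℕ := Tab.col p.1

theorem hp31671 (p : Fin pt.n) : p.1 < 31671 := p.2

theorem colF_lt (p : Fin pt.n) : colF p < 4 :=
  Nat.le_of_ble_eq_true (Cfsg.Agent.Lib.ThreeT.O83.Chk.allN_spec Tab.chkLt p.1 (hp31671 p))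

theorem col_U {c : Nat} (hc : c ∈ Tab.L9) (p : Fin pt.n) : colF (phi (K.E Rel c) p) = sw12 (colF p) := by
  have hc' : c < 10 := hL9 c hc
  have h1 := Cfsg.Agent.Lib.ThreeT.O83.Chk.lAll_spec (Cfsg.Agent.Lib.ThreeT.O83.Chk.allN_spec Tab.chkU p.1 (hp31671 p)) c hc
  have h2 := Nat.eq_of_beq_eq_true h1
  show Tab.col (phi (K.E Rel c) p).1 = _
  rw [phi_E hc']
  exact h2

theorem col_s (p : Fin pt.n) : colF (phi (tt q0F) p) = sw02 (colF p) := by
  have h1 := Cfsg.Agent.Lib.ThreeT.O83.Chk.allN_spec Tab.chkS p.1 (hp31671 p)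
  rw [PT.walk_eq] at h1
  have h2 := Nat.eq_of_beq_eq_true h1
  show Tab.col (phi (tt q0F) p).1 = _
  rw [act_q0]
  exact h2

/-- The roots. -/
theorem rootN_lt (n : Nat) : Tab.rootN n < pt.n := by
  rcases n with _ | _ | _ | n
  · decide +kernel
  · decide +kernel
  · decide +kernel
  · show 11589 < pt.n
    decide +kernel

theorem rootN_sw : ∀ n, n < 4 → Tab.rootN (sw12 n) = Tab.rootN n := by decide

/-- The root of a colour. -/
def rootP (n : Nat) : Fin pt.n := ⟨Tab.rootN n, rootN_lt n⟩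

/-- The forest of the letters. -/
theorem forest (S : Subgroup Γ) (hS : ∀ c ∈ Tab.L9, K.E Rel c ∈ S) (d : Nat) : ∀ p : Fin pt.n, Tab.dep p.1 = d →
    ∃ g ∈ S, phi g (rootP (colF p)) = p := by
  induction d with
  | zero =>
    intro p hp
    have h1 := Cfsg.Agent.Lib.ThreeT.O83.Chk.allN_spec Tab.chkF p.1 (hp31671 p)
    rw [Cfsg.Agent.Lib.TC.Core.force_eq, hp] at h1
    have h2 := Nat.eq_of_beq_eq_true h1
    exact ⟨1, S.one_mem, by
      apply Fin.ext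
      simp only [map_one, Equiv.Perm.coe_one, id]
      exact h2.symm⟩
  | succ d ih =>
    intro p hp
    have h1 := Cfsg.Agent.Lib.ThreeT.O83.Chk.allN_spec Tab.chkF p.1 (hp31671 p)
    rw [Cfsg.Agent.Lib.TC.Core.force_eq, hp] at h1
    have h2 : andB (Tab.lMem (Tab.par p.1) Tab.L9) (Nat.beq (Nat.succ (Tab.dep (pt.T (Tab.par p.1) p.1))) (d + 1)) = true := h1
    rw [andB_eq_true] at h2
    have hc := Tab.lMem_spec h2.1
    have h3 := Nat.eq_of_beq_eq_true h2.2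
    set c := Tab.par p.1 with hc0
    have hc' : c < 10 := hL9 c hc
    have h4 : Tab.dep (phi (K.E Rel c) p).1 = d := by
      rw [phi_E hc']
      exact Nat.succ.inj h3
    obtain ⟨g, hg, e⟩ := ih _ h4
    refine ⟨K.E Rel c * g, S.mul_mem (hS c hc) hg, ?_⟩
    rw [col_U hc] at e
    have h5 : rootP (sw12 (colF p)) = rootP (colF p) := Fin.ext (rootN_sw _ (colF_lt p))
    rw [h5] at e
    rw [map_mul, Equiv.Perm.mul_apply, e, ← Equiv.Perm.mul_apply, ← map_mul, E_sq hc']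
    simp

/-- The forest of the eight letters. -/
theorem forest2 (S : Subgroup Γ) (hS : ∀ c ∈ Tab.U8, K.E Rel c ∈ S) (d : Nat) : ∀ p : Fin pt.n, Tab.dep2 p.1 = d + 1 → tt p ∈ S := by
  induction d with
  | zero =>
    intro p hp
    have h1 := Cfsg.Agent.Lib.ThreeT.O83.Chk.allN_spec Tab.chk351 p.1 (hp31671 p)
    rw [Cfsg.Agent.Lib.TC.Core.force_eq, hp] at h1
    have h2 := Nat.eq_of_beq_eq_true h1
    have h3 : p = ptlF 1 (by decide) := Fin.ext h2
    rw [h3, tt_letter]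
    exact hS 1 (by decide)
  | succ d ih =>
    intro p hp
    have h1 := Cfsg.Agent.Lib.ThreeT.O83.Chk.allN_spec Tab.chk351 p.1 (hp31671 p)
    rw [Cfsg.Agent.Lib.TC.Core.force_eq, hp] at h1
    have h2 : andB (Tab.lMem (Tab.par2 p.1) Tab.U8) (Nat.beq (Nat.succ (Tab.dep2 (pt.T (Tab.par2 p.1) p.1))) (d + 1 + 1)) = true := h1
    rw [andB_eq_true] at h2
    have hc := Tab.lMem_spec h2.1
    have h3 := Nat.eq_of_beq_eq_true h2.2
    set c := Tab.par2 p.1 with hc0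
    have hc' : c < 10 := hU8 c hc
    have h4 : Tab.dep2 (phi (K.E Rel c) p).1 = d + 1 := by
      rw [phi_E hc']
      exact Nat.succ.inj h3
    have h5 := ih _ h4
    rw [← tt_conj] at h5
    have h6 : tt p = (K.E Rel c)⁻¹ * (K.E Rel c * tt p * (K.E Rel c)⁻¹) * K.E Rel c := by group
    rw [h6]
    exact S.mul_mem (S.mul_mem (S.inv_mem (hS c hc)) h5) (hS c hc)

theorem mem_351 (S : Subgroup Γ) (hS : ∀ c ∈ Tab.U8, K.E Rel c ∈ S) (p : Fin pt.n) (hp : colF p = 0) (h0 : p ≠ 0)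
    (hx : phi a0 p = p) : tt p ∈ S := by
  have h1 := Cfsg.Agent.Lib.ThreeT.O83.Chk.allN_spec Tab.chk351 p.1 (hp31671 p)
  rw [Cfsg.Agent.Lib.TC.Core.force_eq] at h1
  cases hd : Tab.dep2 p.1 with
  | succ d => exact forest2 S hS d p hd
  | zero =>
    exfalso
    rw [hd] at h1
    have h2 : Tab.chk351a p.1 = true := h1
    have h3 : Nat.beq (Tab.col p.1) 0 = true := by
      have : Tab.col p.1 = 0 := hp
      rw [this]
      rfl
    have h4 : Nat.beq p.1 0 = false := by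
      cases hb : Nat.beq p.1 0 with
      | true => exact absurd (Fin.ext (Nat.eq_of_beq_eq_true hb)) h0
      | false => rfl
    rw [Tab.chk351a, h3] at h2
    simp only [h4] at h2
    rw [PT.walk_eq] at h2
    have h5 : pt.val Tab.zw p.1 = p.1 := by
      rw [← act_x, hx]
    rw [h5] at h2
    simp [Nat.beq_refl] at h2

theorem fixK_tab (p : Fin pt.n) (hp : colF p ≠ 3) (h0 : p ≠ 0) :
    ∃ c ∈ Tab.U8, phi (K.E Rel c) p ≠ p ∧ phi (K.E Rel c) p ≠ phi a0 p := by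
  have h1 := Cfsg.Agent.Lib.ThreeT.O83.Chk.allN_spec Tab.chkFixK p.1 (hp31671 p)
  have h3 : Nat.beq (Tab.col p.1) 3 = false := by
    cases hb : Nat.beq (Tab.col p.1) 3 with
    | true => exact absurd (Nat.eq_of_beq_eq_true hb) hp
    | false => rfl
  have h4 : Nat.beq p.1 0 = false := by
    cases hb : Nat.beq p.1 0 with
    | true => exact absurd (Fin.ext (Nat.eq_of_beq_eq_true hb)) h0
    | false => rfl
  simp only [h3, h4] at h1
  rw [PT.walk_eq] at h1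
  obtain ⟨c, hc, h5⟩ := Cfsg.Agent.Lib.ThreeT.O83.Chk.lAny_spec h1
  have hc' : c < 10 := hU8 c hc
  rw [Cfsg.Agent.Lib.TC.Core.force_eq, andB_eq_true] at h5
  refine ⟨c, hc, ?_, ?_⟩
  · intro h
    have h6 := congrArg Fin.val h
    rw [phi_E hc'] at h6
    have h7 := h5.1
    rw [h6] at h7
    simp [Nat.beq_refl] at h7
  · intro h
    have h6 := congrArg Fin.val h
    rw [phi_E hc', act_x] at h6
    have h7 := h5.2
    rw [h6] at h7
    simp [Nat.beq_refl] at h7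

/-- The number of points with a given label. -/
theorem ncard_eq (f : Nat → Nat) (l : Nat) : {p : Fin pt.n | f p.1 = l}.ncard = countAcc f l 0 pt.n 0 := by
  classical
  have h1 : ({p : Fin pt.n | f p.1 = l} : Set (Fin pt.n)) = ↑(Finset.univ.filter fun p : Fin pt.n => f p.1 = l) := by
    ext p
    simp
  rw [h1, Set.ncard_coe_finset, countAcc_eq, zero_add]
  apply Finset.card_bij (fun p _ => p.1)
  · intro p hp
    simp only [Finset.mem_filter, Finset.mem_univ, true_and] at hp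
    simp [hp, p.2]
  · intro p _ q _ h
    exact Fin.ext h
  · intro i hi
    simp only [Finset.mem_filter, Finset.mem_range] at hi
    refine ⟨⟨i, hi.1⟩, ?_, rfl⟩
    simp only [Finset.mem_filter, Finset.mem_univ, true_and]
    simpa using hi.2

theorem card0 : {p : Fin pt.n | colF p = 0}.ncard = 1080 := by
  have := ncard_eq Tab.col 0
  have h2 : countAcc Tab.col 0 0 pt.n 0 = 1080 := Tab.count0
  rw [h2] at this
  exact this

theorem cardY : {p : Fin pt.n | colF p ≠ 3}.ncard = 3240 := by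
  have h1 := ncard_eq Tab.isR 0
  have h2 : countAcc Tab.isR 0 0 pt.n 0 = 3240 := Tab.countY
  rw [h2] at h1
  rw [← h1]
  congr 1
  ext p
  simp only [Set.mem_setOf_eq, Tab.isR, colF]
  cases hb : Nat.beq (Tab.col p.1) 3 with
  | true =>
    have := Nat.eq_of_beq_eq_true hb
    simp [this]
  | false =>
    have h3 : Tab.col p.1 ≠ 3 := by
      intro h
      rw [h] at hb
      simp [Nat.beq_refl] at hb
    simp [h3]

end Cfsg.Agent.Lib.ThreeT.O83.Inst
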